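import Cfsg.Agent.Lib.SimpleOrder.DefectOneSetup
import Cfsg.Agent.Lib.TwoFus.Presentations

/-!
# Simple groups of order 168
-/

set_option autoImplicit false
set_option linter.unusedSectionVars false
set_option linter.style.longLine false
set_option linter.style.haveILetI false

namespace Cfsg.Lib.SimpleOrder.O168

open Subgroup
open scoped Classical

variable {G : Type*} [Group G] [Finite G]

theorem card_sylow_pow {p k : ℕ} [hp : Fact p.Prime] (P : Sylow p G) (h1 : p ^ k ∣ Nat.card G)
    (h2 : ¬ p ^ (k + 1) ∣ Nat.card G) : Nat.card (P : Subgroup G) = p ^ k := by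
  obtain ⟨j, hj⟩ := IsPGroup.iff_card.mp P.isPGroup'
  have h3 := (P : Subgroup G).card_mul_index
  rw [hj] at h3
  rw [← h3] at h1
  have h4 : p ^ k ∣ p ^ j :=
    (Nat.Coprime.pow_left k ((hp.out.coprime_iff_not_dvd).mpr P.not_dvd_index)).dvd_of_dvd_mul_right h1
  have h5 : k ≤ j := (Nat.pow_dvd_pow_iff_le_right hp.out.one_lt).mp h4
  have h6 : j ≤ k := by
    by_contra hlt
    exact h2 ((pow_dvd_pow p (by omega)).trans (hj ▸ Subgroup.card_subgroup_dvd_card (P : Subgroup G)))
  rw [hj, le_antisymm h6 h5]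

theorem exists_sylow_zpowers {p : ℕ} [hp : Fact p.Prime] (h1 : ∀ P : Sylow p G, Nat.card (P : Subgroup G) = p)
    {y : G} (hy : orderOf y = p) : ∃ P : Sylow p G, (P : Subgroup G) = zpowers y := by
  obtain ⟨P, hP⟩ := (IsPGroup.of_card (n := 1) (by rw [Nat.card_zpowers, hy, pow_one]) :
    IsPGroup p (zpowers y)).exists_le_sylow
  exact ⟨P, (Subgroup.eq_of_le_of_card_ge hP (by rw [h1, Nat.card_zpowers, hy])).symm⟩

theorem card_order_eq {p : ℕ} [hp : Fact p.Prime] (h1 : ∀ P : Sylow p G, Nat.card (P : Subgroup G) = p) :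
    Nat.card {g : G // orderOf g = p} = Nat.card (Sylow p G) * (p - 1) := by
  letI := Fintype.ofFinite G
  choose S hS using fun g : {g : G // orderOf g = p} => exists_sylow_zpowers h1 g.2
  have e : {g : G // orderOf g = p} ≃ Σ P : Sylow p G, {w : ↥(P : Subgroup G) // w ≠ 1} :=
    Equiv.symm (Equiv.ofBijective (fun x => ⟨(x.2.1 : G),
      (DefectOne.zpowers_eq (h1 x.1) x.2.1.2 fun e => x.2.2 (Subtype.ext e)).2⟩) ⟨by
      rintro ⟨P, w, hw⟩ ⟨R, v, hv⟩ e
      have e' : (w : G) = v := congrArg Subtype.val e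
      have hPR : P = R := Sylow.ext (by
        rw [← (DefectOne.zpowers_eq (h1 P) w.2 fun e => hw (Subtype.ext e)).1,
          ← (DefectOne.zpowers_eq (h1 R) v.2 fun e => hv (Subtype.ext e)).1, e'])
      subst hPR
      obtain rfl : w = v := Subtype.ext e'
      rfl, fun g => by
      refine ⟨⟨S g, ⟨(g : G), by rw [hS g]; exact mem_zpowers _⟩, fun e => ?_⟩, rfl⟩
      have e' : (g : G) = 1 := congrArg Subtype.val e
      have := g.2
      rw [e', orderOf_one] at this
      exact hp.out.ne_one this.symm⟩)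
  rw [Nat.card_congr e, Nat.card_sigma, Finset.sum_congr rfl (g := fun _ => p - 1) fun P _ => by
    rw [Nat.card_eq_fintype_card, Fintype.card_subtype_compl, Fintype.card_subtype_eq,
      ← Nat.card_eq_fintype_card, h1],
    Finset.sum_const, Finset.card_univ, smul_eq_mul, Nat.card_eq_fintype_card]

variable [IsSimpleGroup G] (h : Nat.card G = 168)

include h

theorem notComm : ¬ IsMulCommutative G :=
  Cfsg.Lib.SimpleOrder.not_comm_of_not_prime (by rw [h]; norm_num)

theorem card_seven [Fact (Nat.Prime 7)] (P : Sylow 7 G) : Nat.card (P : Subgroup G) = 7 := by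
  rw [card_sylow_pow (k := 1) P (by rw [h]; norm_num) (by rw [h]; norm_num), pow_one]

theorem card_three [Fact (Nat.Prime 3)] (P : Sylow 3 G) : Nat.card (P : Subgroup G) = 3 := by
  rw [card_sylow_pow (k := 1) P (by rw [h]; norm_num) (by rw [h]; norm_num), pow_one]

theorem card_two [Fact (Nat.Prime 2)] (T : Sylow 2 G) : Nat.card (T : Subgroup G) = 8 := by
  rw [card_sylow_pow (k := 3) T (by rw [h]; norm_num) (by rw [h]; norm_num)]; norm_num

theorem n_seven : Nat.card (Sylow 7 G) = 8 := by
  haveI : Fact (Nat.Prime 7) := ⟨by norm_num⟩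
  obtain ⟨n, m, c, hn, hmod, hn1, -, -, hr, -⟩ :=
    DefectOne.restrictions 7 24 (G := G) (by omega) (by norm_num) (by norm_num)
  have hnd : n ∈ Nat.divisors 24 := Nat.mem_divisors.mpr ⟨⟨c * m, by rw [← hr]; ring⟩, by norm_num⟩
  rw [← hn]
  exact ((by decide +kernel : ∀ n ∈ Nat.divisors 24, n % 7 = 1 → n = 1 ∨ n = 8) n hnd hmod).resolve_left hn1

theorem normalizer_seven [Fact (Nat.Prime 7)] (P : Sylow 7 G) :
    Nat.card (normalizer ((P : Subgroup G) : Set G)) = 21 := by
  have h1 : (normalizer ((P : Subgroup G) : Set G)).index = 8 :=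
    (n_seven h).symm.trans P.card_eq_index_normalizer |>.symm
  have h2 := Subgroup.card_mul_index (normalizer ((P : Subgroup G) : Set G))
  rw [h, h1] at h2
  omega

theorem centralizer_seven {x : G} (hx : orderOf x = 7) : centralizer ({x} : Set G) = zpowers x := by
  haveI : Fact (Nat.Prime 7) := ⟨by norm_num⟩
  letI := Fintype.ofFinite G
  obtain ⟨P, hP⟩ := exists_sylow_zpowers (card_seven h) hx
  have hc := DefectOne.card_normalizer (card_seven h P)
  rw [normalizer_seven h P] at hc
  have hd := DefectOne.dvd_card_centralizer (card_seven h P)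
  have hm := DefectOne.card_aut_ne_one (notComm h) (card_seven h P)
  have hx1 : x ≠ 1 := fun e => by rw [e, orderOf_one] at hx; omega
  rw [DefectOne.centralizer_eq (card_seven h P) (hP ▸ mem_zpowers x) hx1, ← hP]
  refine (Subgroup.eq_of_le_of_card_ge (DefectOne.le_centralizer (card_seven h P)) ?_).symm
  rw [card_seven h P]
  obtain ⟨d, hd⟩ := hd
  rw [hd, mul_assoc] at hc
  have h3 : d * Nat.card (Cfsg.Lib.FreeNormalizer.aut P) = 3 := by omega
  rcases (Nat.dvd_prime Nat.prime_three).mp ⟨_, h3.symm⟩ with rfl | rfl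
  · omega
  · omega

theorem n_three : Nat.card (Sylow 3 G) = 28 := by
  haveI : Fact (Nat.Prime 3) := ⟨by norm_num⟩
  haveI : Fact (Nat.Prime 7) := ⟨by norm_num⟩
  obtain ⟨n, m, c, hn, hmod, hn1, -, -, hr, -⟩ :=
    DefectOne.restrictions 3 56 (G := G) (by omega) (by norm_num) (by norm_num)
  have hnd : n ∈ Nat.divisors 56 := Nat.mem_divisors.mpr ⟨⟨c * m, by rw [← hr]; ring⟩, by norm_num⟩
  rcases ((by decide +kernel : ∀ n ∈ Nat.divisors 56, n % 3 = 1 → n = 1 ∨ n = 4 ∨ n = 7 ∨ n = 28) n hnd hmod).resolve_left hn1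
    with e | e | e
  · have := Nat.le_of_dvd (by norm_num)
      (Cfsg.Lib.SimpleOrder.card_dvd_of_sylow_succ (notComm h) (p := 3) (by norm_num) (by rw [← hn, e]))
    omega
  · exfalso
    obtain ⟨x, hx⟩ := exists_prime_orderOf_dvd_card' (G := G) 3 (by rw [h]; norm_num)
    have hfix : ∀ Q : Sylow 7 G, x • Q = Q := by
      intro Q
      rw [Sylow.smul_eq_iff_mem_normalizer]
      obtain ⟨y, hy⟩ := exists_prime_orderOf_dvd_card' (G := (Q : Subgroup G)) 7 (by rw [card_seven h])
      obtain ⟨x₀, hx₀⟩ := exists_prime_orderOf_dvd_card' (G := normalizer ((Q : Subgroup G) : Set G)) 3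
        (by rw [normalizer_seven h]; norm_num)
      obtain ⟨P₀, hP₀⟩ := exists_sylow_zpowers (card_three h) (y := (x₀ : G)) (by rw [Subgroup.orderOf_coe, hx₀])
      have hy7 : orderOf (y : G) = 7 := by rw [Subgroup.orderOf_coe, hy]
      have hNP : ∀ P : Sylow 3 G, (y : G) ∉ normalizer (P : Set G) := by
        intro P hmem
        have h1 := Subgroup.orderOf_dvd_natCard _ hmem
        have h2 := Subgroup.card_mul_index (normalizer (P : Set G))
        rw [← P.card_eq_index_normalizer, ← hn, e, h] at h2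
        rw [hy7] at h1
        omega
      let φ : Fin 7 → Sylow 3 G := fun i => (y : G) ^ (i : ℕ) • P₀
      have hφ : Function.Injective φ := by
        intro i j hij
        by_contra hne
        wlog hlt : (i : ℕ) < j generalizing i j
        · exact this hij.symm (Ne.symm hne) (lt_of_le_of_ne (not_lt.mp hlt) fun e' => hne (Fin.ext e'.symm))
        have h1 : ((y : G) ^ ((j : ℕ) - i)) • P₀ = P₀ := by
          apply MulAction.injective ((y : G) ^ (i : ℕ))
          show (y : G) ^ (i : ℕ) • _ = _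
          rw [← mul_smul, ← pow_add, show (i : ℕ) + (j - i) = j by omega]
          exact hij.symm
        rw [Sylow.smul_eq_iff_mem_normalizer] at h1
        have hcop : ((j : ℕ) - i).Coprime (orderOf (y : G)) := by
          rw [hy7]
          exact ((Nat.Prime.coprime_iff_not_dvd (by norm_num)).mpr fun hd => by
            have := Nat.le_of_dvd (by omega) hd
            omega).symm
        obtain ⟨k, hk⟩ := exists_pow_eq_self_of_coprime hcop
        exact hNP P₀ (hk ▸ pow_mem h1 k)
      have hbij : Function.Bijective φ := (Nat.bijective_iff_injective_and_card φ).mpr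
        ⟨hφ, by rw [Nat.card_fin, ← hn, e]⟩
      obtain ⟨P, hP⟩ := exists_sylow_zpowers (card_three h) hx
      obtain ⟨i, hi⟩ := hbij.2 P
      have hxP : x ∈ (φ i : Subgroup G) := by rw [hi, hP]; exact mem_zpowers x
      rw [Sylow.coe_subgroup_smul, Subgroup.mem_pointwise_smul_iff_inv_smul_mem, hP₀] at hxP
      have hyN : ((y : G) ^ (i : ℕ)) ∈ normalizer ((Q : Subgroup G) : Set G) :=
        Subgroup.le_normalizer (pow_mem y.2 _)
      have h2 : ((MulAut.conj ((y : G) ^ (i : ℕ))))⁻¹ • x ∈ normalizer ((Q : Subgroup G) : Set G) :=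
        (zpowers_le.mpr x₀.2) hxP
      have h3 := mul_mem (mul_mem hyN h2) (inv_mem hyN)
      have h4 : (y : G) ^ (i : ℕ) * ((MulAut.conj ((y : G) ^ (i : ℕ)))⁻¹ • x) * ((y : G) ^ (i : ℕ))⁻¹ = x :=
        MulEquiv.apply_symm_apply (MulAut.conj ((y : G) ^ (i : ℕ))) x
      rwa [h4] at h3
    let φ : G →* Equiv.Perm (Sylow 7 G) := MulAction.toPermHom G (Sylow 7 G)
    rcases IsSimpleGroup.eq_bot_or_eq_top_of_normal φ.ker inferInstance with hb | ht
    · have : x ∈ φ.ker := Equiv.ext fun Q => hfix Q
      rw [hb, mem_bot] at this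
      rw [this, orderOf_one] at hx
      omega
    · obtain ⟨Q⟩ : Nonempty (Sylow 7 G) := inferInstance
      have : normalizer ((Q : Subgroup G) : Set G) = ⊤ := by
        rw [eq_top_iff]
        intro g _
        have hg : g ∈ φ.ker := ht ▸ mem_top g
        have hk : φ g = 1 := MonoidHom.mem_ker.mp hg
        exact Sylow.smul_eq_iff_mem_normalizer.mp (Equiv.congr_fun hk Q)
      have h1 := normalizer_seven h Q
      rw [this, Subgroup.card_top, h] at h1
      omega
  · rw [← hn, e]

theorem normalizer_three [Fact (Nat.Prime 3)] (P : Sylow 3 G) :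
    Nat.card (normalizer ((P : Subgroup G) : Set G)) = 6 := by
  have h1 : (normalizer ((P : Subgroup G) : Set G)).index = 28 :=
    (n_three h).symm.trans P.card_eq_index_normalizer |>.symm
  have h2 := Subgroup.card_mul_index (normalizer ((P : Subgroup G) : Set G))
  rw [h, h1] at h2
  omega

theorem centralizer_three {x : G} (hx : orderOf x = 3) : centralizer ({x} : Set G) = zpowers x := by
  haveI : Fact (Nat.Prime 3) := ⟨by norm_num⟩
  letI := Fintype.ofFinite G
  obtain ⟨P, hP⟩ := exists_sylow_zpowers (card_three h) hx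
  have hc := DefectOne.card_normalizer (card_three h P)
  rw [normalizer_three h P] at hc
  have hm := DefectOne.card_aut_ne_one (notComm h) (card_three h P)
  have hd := DefectOne.dvd_card_centralizer (card_three h P)
  have hx1 : x ≠ 1 := fun e => by rw [e, orderOf_one] at hx; omega
  rw [DefectOne.centralizer_eq (card_three h P) (hP ▸ mem_zpowers x) hx1, ← hP]
  refine (Subgroup.eq_of_le_of_card_ge (DefectOne.le_centralizer (card_three h P)) ?_).symm
  rw [card_three h P]
  obtain ⟨d, hd⟩ := hd
  rw [hd, mul_assoc] at hc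
  have h3 : d * Nat.card (Cfsg.Lib.FreeNormalizer.aut P) = 2 := by omega
  rcases (Nat.dvd_prime Nat.prime_two).mp ⟨_, h3.symm⟩ with rfl | rfl
  · omega
  · omega

/-- Centralisers of involutions are 2-groups. -/
theorem card_centralizer_involution {t : G} (ht : orderOf t = 2) :
    Nat.card (centralizer ({t} : Set G)) ∣ 8 := by
  set C := centralizer ({t} : Set G)
  have hd : Nat.card C ∣ 168 := h ▸ Subgroup.card_subgroup_dvd_card C
  have hnot : ∀ q : ℕ, q = 3 ∨ q = 7 → ¬ q ∣ Nat.card C := by
    intro q hq hqd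
    haveI : Fact q.Prime := ⟨by rcases hq with rfl | rfl <;> norm_num⟩
    obtain ⟨y, hy⟩ := exists_prime_orderOf_dvd_card' (G := C) q hqd
    have hyq : orderOf (y : G) = q := by rw [Subgroup.orderOf_coe, hy]
    have hC : centralizer ({(y : G)} : Set G) = zpowers (y : G) := by
      rcases hq with rfl | rfl
      · exact centralizer_three h hyq
      · exact centralizer_seven h hyq
    have htC : t ∈ centralizer ({(y : G)} : Set G) :=
      mem_centralizer_singleton_iff.mpr (mem_centralizer_singleton_iff.mp y.2).symm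
    rw [hC] at htC
    have h1 := Subgroup.orderOf_dvd_natCard _ htC
    rw [Nat.card_zpowers, hyq, ht] at h1
    rcases hq with rfl | rfl <;> omega
  have h3 := hnot 3 (Or.inl rfl)
  have h7 := hnot 7 (Or.inr rfl)
  exact (by decide +kernel : ∀ d ∈ Nat.divisors 168, ¬ 3 ∣ d → ¬ 7 ∣ d → d ∣ 8) _
    (Nat.mem_divisors.mpr ⟨hd, by norm_num⟩) h3 h7

theorem not_cyclic_two [Fact (Nat.Prime 2)] (T : Sylow 2 G) : ¬ IsCyclic (T : Subgroup G) := by
  intro hc
  haveI := hc
  letI := Fintype.ofFinite G
  have hle : normalizer ((T : Subgroup G) : Set G) ≤ centralizer ((T : Subgroup G) : Set G) :=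
    IsCyclic.normalizer_le_centralizer (by rw [h]; norm_num) hc
  have hcard := (MonoidHom.ker_transferSylow_isComplement' T hle).card_mul_card
  rw [card_two h, h] at hcard
  rcases IsSimpleGroup.eq_bot_or_eq_top_of_normal (MonoidHom.transferSylow T hle).ker inferInstance with e | e
  · rw [e, Subgroup.card_bot] at hcard; omega
  · rw [e, Subgroup.card_top, h] at hcard; omega

/-- Possible element orders. -/
theorem orderOf_cases (g : G) :
    orderOf g = 1 ∨ orderOf g = 2 ∨ orderOf g = 3 ∨ orderOf g = 4 ∨ orderOf g = 7 := by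
  have hd : orderOf g ∣ 168 := h ▸ orderOf_dvd_natCard g
  have hkey : ∀ q : ℕ, q = 3 ∨ q = 7 → q ∣ orderOf g → orderOf g = q := by
    intro q hq hqd
    set y := g ^ (orderOf g / q)
    have hy : orderOf y = q := orderOf_pow_orderOf_div (orderOf_pos g).ne' hqd
    have hC : centralizer ({y} : Set G) = zpowers y := by
      rcases hq with rfl | rfl
      · exact centralizer_three h hy
      · exact centralizer_seven h hy
    have hg : g ∈ centralizer ({y} : Set G) :=
      mem_centralizer_singleton_iff.mpr (Commute.self_pow g _).eq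
    rw [hC] at hg
    have h1 := Subgroup.orderOf_dvd_natCard _ hg
    rw [Nat.card_zpowers, hy] at h1
    exact Nat.dvd_antisymm h1 hqd
  have h8 : orderOf g ≠ 8 := by
    intro e
    haveI : Fact (Nat.Prime 2) := ⟨Nat.prime_two⟩
    obtain ⟨T, hT⟩ := (IsPGroup.of_card (n := 3) (by rw [Nat.card_zpowers, e]; norm_num) :
      IsPGroup 2 (zpowers g)).exists_le_sylow
    have heq : zpowers g = (T : Subgroup G) :=
      Subgroup.eq_of_le_of_card_ge hT (by rw [Nat.card_zpowers, e, card_two h])
    exact not_cyclic_two h T (heq ▸ inferInstance)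
  have h3 := hkey 3 (Or.inl rfl)
  have h7 := hkey 7 (Or.inr rfl)
  rcases (by decide +kernel : ∀ d ∈ Nat.divisors 168, 3 ∣ d ∨ 7 ∣ d ∨ d = 1 ∨ d = 2 ∨ d = 4 ∨ d = 8) _
    (Nat.mem_divisors.mpr ⟨hd, by norm_num⟩) with e | e | e | e | e | e
  · exact Or.inr (Or.inr (Or.inl (h3 e)))
  · exact Or.inr (Or.inr (Or.inr (Or.inr (h7 e))))
  all_goals omega

end Cfsg.Lib.SimpleOrder.O168
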