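import Cfsg.Agent.Lib.SimpleOrder.Order168Two
import Cfsg.Agent.S1012

/-!
# Klein four-groups and maximal subgroups of a simple group of order 168
-/

set_option autoImplicit false
set_option linter.unusedSectionVars false
set_option linter.style.longLine false
set_option linter.style.haveILetI false

namespace Cfsg.Lib.SimpleOrder.O168

open Subgroup
open scoped Classical

theorem klein_card : ((Finset.univ : Finset (DihedralGroup 4)).powerset.filter fun S =>
    S.card = 4 ∧ (∀ x ∈ S, x * x = 1) ∧ ∀ x ∈ S, ∀ y ∈ S, x * y ∈ S).card = 2 := by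
  decide +kernel

variable {G : Type*} [Group G] [Finite G] [IsSimpleGroup G] (h : Nat.card G = 168)

omit [IsSimpleGroup G] in
theorem isKleinFour_sq {U : Subgroup G} (hU : IsKleinFour ↥U) {x : G} (hx : x ∈ U) : x * x = 1 :=
  congrArg Subtype.val (hU.mul_self ⟨x, hx⟩)

omit [IsSimpleGroup G] in
theorem isKleinFour_of_sq {U : Subgroup G} (h4 : Nat.card U = 4) (hsq : ∀ x ∈ U, x * x = 1) : IsKleinFour ↥U := by
  refine ⟨h4, ?_⟩
  haveI : Nontrivial ↥U := Finite.one_lt_card_iff_nontrivial.mp (by omega)
  rcases Nat.prime_two.eq_one_or_self_of_dvd _ (Monoid.exponent_dvd_of_forall_pow_eq_one (G := U) (n := 2)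
    fun x => Subtype.ext (by rw [Subgroup.coe_pow, sq]; exact hsq x x.2)) with e | e
  · exact absurd (Monoid.exp_eq_one_iff.mp e) (not_subsingleton _)
  · exact e

include h

/-- Two Klein four-groups in each Sylow 2-subgroup. -/
theorem card_klein [Fact (Nat.Prime 2)] (T : Sylow 2 G) :
    Nat.card {U : Subgroup G // U ≤ (T : Subgroup G) ∧ IsKleinFour ↥U} = 2 := by
  obtain ⟨e⟩ := nonempty_dihedral h T
  let F : {U : Subgroup G // U ≤ (T : Subgroup G) ∧ IsKleinFour ↥U} →
      {S : Finset (DihedralGroup 4) // S ∈ ((Finset.univ : Finset (DihedralGroup 4)).powerset.filter fun S =>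
        S.card = 4 ∧ (∀ x ∈ S, x * x = 1) ∧ ∀ x ∈ S, ∀ y ∈ S, x * y ∈ S)} := fun U =>
    ⟨Finset.univ.filter fun d => ((e.symm d : ↥(T : Subgroup G)) : G) ∈ U.1, by
      rw [Finset.mem_filter, Finset.mem_powerset]
      refine ⟨Finset.subset_univ _, ?_, fun x hx => ?_, fun x hx y hy => ?_⟩
      · rw [← Fintype.card_subtype, ← Nat.card_eq_fintype_card]
        refine Eq.trans ?_ U.2.2.card_four
        exact Nat.card_congr
          { toFun := fun d => ⟨(e.symm d.1 : G), d.2⟩
            invFun := fun u => ⟨e ⟨u.1, U.2.1 u.2⟩, by simp⟩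
            left_inv := fun d => Subtype.ext (by simp)
            right_inv := fun u => Subtype.ext (by simp) }
      · have h1 := isKleinFour_sq U.2.2 (Finset.mem_filter.mp hx).2
        apply e.symm.injective
        rw [map_mul, map_one]
        exact Subtype.ext h1
      · refine Finset.mem_filter.mpr ⟨Finset.mem_univ _, ?_⟩
        rw [map_mul, Subgroup.coe_mul]
        exact mul_mem (Finset.mem_filter.mp hx).2 (Finset.mem_filter.mp hy).2⟩
  have hF : Function.Bijective F := by
    constructor
    · intro U W heq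
      have h1 := congrArg Subtype.val heq
      refine Subtype.ext (Subgroup.ext fun g => ?_)
      have key : ∀ (hg : g ∈ (T : Subgroup G)), (g ∈ U.1 ↔ g ∈ W.1) := fun hg => by
        have h2 := Finset.ext_iff.mp h1 (e ⟨g, hg⟩)
        simp only [F, Finset.mem_filter, Finset.mem_univ, true_and, e.symm_apply_apply] at h2
        exact h2
      exact ⟨fun hg => (key (U.2.1 hg)).mp hg, fun hg => (key (W.2.1 hg)).mpr hg⟩
    · rintro ⟨S, hS⟩
      obtain ⟨-, hcard, hsq, hmul⟩ := Finset.mem_filter.mp hS
      obtain ⟨x₀, hx₀⟩ := Finset.card_pos.mp (by omega : 0 < S.card)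
      let U₀ : Subgroup (DihedralGroup 4) :=
        { carrier := S
          one_mem' := hsq x₀ hx₀ ▸ hmul x₀ hx₀ x₀ hx₀
          mul_mem' := fun {a b} ha hb => hmul a ha b hb
          inv_mem' := fun {a} ha => by
            rw [inv_eq_of_mul_eq_one_right (hsq a ha)]; exact ha }
      set U := U₀.map ((T : Subgroup G).subtype.comp e.symm.toMonoidHom)
      have hinj : Function.Injective ((T : Subgroup G).subtype.comp e.symm.toMonoidHom) :=
        (Subgroup.subtype_injective _).comp e.symm.injective
      have hU : U ≤ (T : Subgroup G) := by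
        rintro _ ⟨d, -, rfl⟩
        exact (e.symm d).2
      have hK : IsKleinFour ↥U := by
        refine isKleinFour_of_sq ?_ ?_
        · rw [← Nat.card_congr (U₀.equivMapOfInjective _ hinj).toEquiv]
          exact (Nat.card_eq_finsetCard S).trans hcard
        · rintro _ ⟨d, hd, rfl⟩
          rw [← map_mul, hsq d hd, map_one]
      refine ⟨⟨U, hU, hK⟩, Subtype.ext (Finset.ext fun d => ?_)⟩
      simp only [F, Finset.mem_filter, Finset.mem_univ, true_and]
      exact Subgroup.mem_map_iff_mem (f := (T : Subgroup G).subtype.comp e.symm.toMonoidHom) hinj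
  rw [Nat.card_congr (Equiv.ofBijective F hF), Nat.card_eq_fintype_card, Fintype.card_coe, klein_card]

omit [Finite G] [IsSimpleGroup G] h in
theorem mem_normalizer_of_map {U : Subgroup G} {g : G} (hg : U.map (MulAut.conj g).toMonoidHom = U) :
    g ∈ normalizer (U : Set G) := by
  rw [Subgroup.mem_normalizer_iff]
  intro w
  conv_rhs => rw [← hg]
  exact (Subgroup.mem_map_iff_mem (f := (MulAut.conj g).toMonoidHom) (MulAut.conj g).injective).symm

omit [Finite G] [IsSimpleGroup G] h in
theorem map_of_mem_normalizer {U : Subgroup G} {g : G} (hg : g ∈ normalizer (U : Set G)) :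
    U.map (MulAut.conj g).toMonoidHom = U := by
  ext w
  rw [Subgroup.mem_map]
  constructor
  · rintro ⟨v, hv, rfl⟩
    exact (Subgroup.mem_normalizer_iff.mp hg v).mp hv
  · intro hw
    refine ⟨g⁻¹ * w * g, (Subgroup.mem_normalizer_iff''.mp hg w).mp hw, ?_⟩
    show g * (g⁻¹ * w * g) * g⁻¹ = w
    group

theorem le_normalizer_of_index_two {U T : Subgroup G} (hU : U ≤ T) (hcard : Nat.card T = 8) (h4 : Nat.card U = 4) :
    T ≤ normalizer (U : Set G) := by
  intro t ht
  have hidx : (U.subgroupOf T).index = 2 := by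
    have h1 := (U.subgroupOf T).card_mul_index
    rw [Nat.card_congr (Subgroup.subgroupOfEquivOfLe hU).toEquiv, h4, hcard] at h1
    omega
  haveI := Subgroup.normal_of_index_eq_two hidx
  refine mem_normalizer_of_map (Subgroup.eq_of_le_of_card_ge ?_
    (le_of_eq (Nat.card_congr (U.equivMapOfInjective _ (MulAut.conj t).injective).toEquiv)))
  rintro _ ⟨v, hv, rfl⟩
  exact (inferInstance : (U.subgroupOf T).Normal).conj_mem ⟨v, hU hv⟩ hv ⟨t, ht⟩

theorem not_le_two [Fact (Nat.Prime 2)] {M : Subgroup G} (T : Sylow 2 G) (hM : Nat.card M = 24) :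
    ∀ z : G, orderOf z = 2 → ¬ M ≤ centralizer ({z} : Set G) := fun z hz hle => by
  have h1 := Subgroup.card_dvd_of_le hle
  rw [hM] at h1
  have := Nat.le_of_dvd (by norm_num) (h1.trans (card_centralizer_involution h hz))
  omega

/-- The normaliser of a Klein four-group has order 24. -/
theorem card_normalizer_klein [Fact (Nat.Prime 2)] (U : Subgroup G) (hU : IsKleinFour ↥U) :
    Nat.card (normalizer (U : Set G)) = 24 := by
  haveI := hU
  set N := normalizer (U : Set G)
  have hU4 : Nat.card U = 4 := hU.card_four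
  obtain ⟨T, hT⟩ := (IsPGroup.of_card (n := 2) (by rw [hU4]; norm_num) : IsPGroup 2 U).exists_le_sylow
  obtain ⟨z, hz, hz1, hzc⟩ := exists_central h T
  obtain ⟨hz2, hzC⟩ := centralizer_central h T hz hz1 hzc
  have hTN : (T : Subgroup G) ≤ N := le_normalizer_of_index_two h hT (card_two h T) hU4
  -- a different involution of `U`
  obtain ⟨u, huU, hu1, huz⟩ : ∃ u ∈ U, u ≠ 1 ∧ u ≠ z := by
    by_contra! hall
    have h1 : Nat.card U ≤ Nat.card (Fin 2) := Nat.card_le_card_of_surjective
      (fun i : Fin 2 => if hzU : z ∈ U then (![1, ⟨z, hzU⟩] : Fin 2 → U) i else 1) fun v => by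
        by_cases hv : v = 1
        · refine ⟨0, ?_⟩
          subst hv
          by_cases hzU : z ∈ U <;> simp [hzU]
        · have hvz : (v : G) = z := hall v v.2 fun e => hv (Subtype.ext e)
          have hzU : z ∈ U := hvz ▸ v.2
          exact ⟨1, by simp [hzU]; exact Subtype.ext hvz.symm⟩
    rw [hU4, Nat.card_fin] at h1
    omega
  have hu2 : orderOf u = 2 := orderOf_eq_prime (by rw [sq]; exact isKleinFour_sq hU huU) hu1
  -- the centraliser of `u` is another Sylow 2-subgroup normalising `U`
  obtain ⟨c, hc⟩ := isConj_iff.mp (conj_two h hz2 hu2)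
  have hCu : ((c • T : Sylow 2 G) : Subgroup G) = centralizer ({u} : Set G) := by
    refine ((centralizer_central h (c • T) (z := u) ?_ hu1 ?_).2).symm
    · rw [Sylow.coe_subgroup_smul, ← hc]
      exact ⟨z, hz, rfl⟩
    · rw [Sylow.coe_subgroup_smul]
      rintro _ ⟨t, ht, rfl⟩
      show MulAut.conj c t * u = u * MulAut.conj c t
      rw [← hc, MulAut.conj_apply]
      calc c * t * c⁻¹ * (c * z * c⁻¹) = c * (t * z) * c⁻¹ := by group
        _ = c * (z * t) * c⁻¹ := by rw [hzc t ht]
        _ = _ := by group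
  have hUC : U ≤ centralizer ({u} : Set G) := fun v hv => mem_centralizer_singleton_iff.mpr
    (congrArg Subtype.val (mul_comm_of_exponent_two hU.exponent_two (⟨v, hv⟩ : U) ⟨u, huU⟩))
  have hCN : centralizer ({u} : Set G) ≤ N := by
    refine le_normalizer_of_index_two h hUC ?_ hU4
    rw [← hCu, card_two h]
  have h8 : 8 ∣ Nat.card N := card_two h T ▸ Subgroup.card_dvd_of_le hTN
  have hgt : Nat.card N ≠ 8 := by
    intro e
    have e1 : (T : Subgroup G) = N := Subgroup.eq_of_le_of_card_ge hTN (by rw [e, card_two h T])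
    have e2 : centralizer ({u} : Set G) = N :=
      Subgroup.eq_of_le_of_card_ge hCN (by rw [e, ← hCu, card_two h])
    have h3 : z ∈ centralizer ({u} : Set G) := by rw [e2, ← e1]; exact hz
    -- both `z` and `u` are central in `T`
    obtain ⟨a, ha, b, hb, hab⟩ := not_abelian_two h T
    have huc : ∀ t ∈ (T : Subgroup G), t * u = u * t := fun t ht => by
      have : t ∈ centralizer ({u} : Set G) := by rw [e2, ← e1]; exact ht
      exact mem_centralizer_singleton_iff.mp this
    obtain ⟨e'⟩ := nonempty_dihedral h T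
    have huT : u ∈ (T : Subgroup G) := hT huU
    have key : ∀ x y : DihedralGroup 4, (∀ v, v * x = x * v) → (∀ v, v * y = y * v) → x ≠ 1 → y ≠ 1 → x = y := by
      decide +kernel
    have := key (e' ⟨z, hz⟩) (e' ⟨u, huT⟩)
      (fun v => by obtain ⟨w, rfl⟩ := e'.surjective v; rw [← map_mul, ← map_mul]; exact congrArg e' (Subtype.ext (hzc w w.2)))
      (fun v => by obtain ⟨w, rfl⟩ := e'.surjective v; rw [← map_mul, ← map_mul]; exact congrArg e' (Subtype.ext (huc w w.2)))
      (fun hh => hz1 (congrArg Subtype.val ((map_eq_one_iff e' e'.injective).mp hh)))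
      (fun hh => hu1 (congrArg Subtype.val ((map_eq_one_iff e' e'.injective).mp hh)))
    exact huz (congrArg Subtype.val (e'.injective this)).symm
  -- the automiser embeds in `S₃`
  set C := centralizer (U : Set G)
  have hCT : C ≤ centralizer ({u} : Set G) := centralizer_le (Set.singleton_subset_iff.mpr huU)
  have hC8 : Nat.card C ∣ 8 := (Subgroup.card_dvd_of_le hCT).trans (card_centralizer_involution h hu2)
  have hrel : C.relIndex N ∣ 6 := by
    have hker : U.normalizerMonoidHom.ker = C.subgroupOf N := U.normalizerMonoidHom_ker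
    rw [Subgroup.relIndex, ← hker, Subgroup.index_ker]
    refine (Subgroup.card_subgroup_dvd_card _).trans ?_
    letI := Fintype.ofFinite U
    let X := {x : U // x ≠ 1}
    let ψ : MulAut U →* Equiv.Perm X :=
      { toFun := fun f => f.toEquiv.subtypeEquiv (fun x => (EmbeddingLike.map_ne_one_iff (f := f)).symm)
        map_one' := Equiv.ext fun x => Subtype.ext rfl
        map_mul' := fun f g => Equiv.ext fun x => Subtype.ext rfl }
    have hψ : Function.Injective ψ := by
      intro f g e
      refine MulEquiv.ext fun x => ?_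
      by_cases hx : x = 1
      · simp [hx]
      · exact congrArg Subtype.val (DFunLike.congr_fun e ⟨x, hx⟩)
    have hX : Nat.card (Equiv.Perm X) = 6 := by
      rw [Nat.card_eq_fintype_card, Fintype.card_perm, Fintype.card_subtype_compl, Fintype.card_subtype_eq,
        ← Nat.card_eq_fintype_card, hU4]
      rfl
    exact hX ▸ Subgroup.card_dvd_of_injective ψ hψ
  have hN48 : Nat.card N ∣ 48 := by
    have hCle : C ≤ N := Subgroup.centralizer_le_normalizer _
    have h1 := Subgroup.relIndex_mul_relIndex ⊥ C N bot_le hCle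
    rw [Subgroup.relIndex_bot_left, Subgroup.relIndex_bot_left] at h1
    exact h1 ▸ Nat.mul_dvd_mul hC8 hrel
  have h168 : Nat.card N ∣ 168 := h ▸ Subgroup.card_subgroup_dvd_card N
  have h24 : Nat.card N ∣ 24 := Nat.dvd_gcd hN48 h168
  rcases (by decide +kernel : ∀ d ∈ Nat.divisors 24, 8 ∣ d → d = 8 ∨ d = 24) _
    (Nat.mem_divisors.mpr ⟨h24, by norm_num⟩) h8 with e | e
  · exact absurd e hgt
  · exact e

theorem no_order_six {M : Subgroup G} (g : M) : orderOf g ≠ 6 := fun e => by
  rw [← Subgroup.orderOf_coe] at e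
  rcases orderOf_cases h (g : G) with e' | e' | e' | e' | e' <;> omega

theorem iso_s4 {M : Subgroup G} (hM : Nat.card M = 24) : Nonempty (↥M ≃* Equiv.Perm (Fin 4)) :=
  Cfsg.Agent.S1012.result hM (no_order_six h)

theorem normalizer_klein_s4 [Fact (Nat.Prime 2)] (U : Subgroup G) (hU : IsKleinFour ↥U) :
    Nonempty (↥(normalizer (U : Set G)) ≃* Equiv.Perm (Fin 4)) :=
  iso_s4 h (card_normalizer_klein h U hU)

/-- Klein four-groups of one Sylow 2-subgroup are not conjugate. -/
theorem klein_not_conj [Fact (Nat.Prime 2)] (T : Sylow 2 G) (U W : Subgroup G) (hU : U ≤ (T : Subgroup G))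
    (hW : W ≤ (T : Subgroup G)) (hKU : IsKleinFour ↥U) (hKW : IsKleinFour ↥W) (hne : U ≠ W) (g : G) :
    U.map (MulAut.conj g).toMonoidHom ≠ W := by
  intro hg
  haveI := hKU
  haveI := hKW
  have hTU := le_normalizer_of_index_two h hU (card_two h T) hKU.card_four
  have hTW := le_normalizer_of_index_two h hW (card_two h T) hKW.card_four
  -- `g⁻¹ • T` normalises `U`
  set T' := g⁻¹ • T
  have hT'U : (T' : Subgroup G) ≤ normalizer (U : Set G) := by
    rw [Sylow.coe_subgroup_smul]
    rintro _ ⟨t, ht, rfl⟩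
    have h1 := map_of_mem_normalizer (hTW ht)
    apply mem_normalizer_of_map
    apply Subgroup.map_injective (f := (MulAut.conj g).toMonoidHom) (MulAut.conj g).injective
    rw [hg, Subgroup.map_map]
    have : (MulAut.conj g).toMonoidHom.comp (MulAut.conj (MulAut.conj g⁻¹ t)).toMonoidHom
        = (MulAut.conj t).toMonoidHom.comp (MulAut.conj g).toMonoidHom := by
      ext x
      simp [mul_assoc]
    show Subgroup.map ((MulAut.conj g).toMonoidHom.comp (MulAut.conj (MulAut.conj g⁻¹ t)).toMonoidHom) U = W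
    rw [this, ← Subgroup.map_map, hg, h1]
  obtain ⟨n, hn⟩ := MulAction.exists_smul_eq (normalizer (U : Set G)) (T.subtype hTU) (T'.subtype hT'U)
  have hgn : (g * (n : G)) • T = T := by
    have h2 : ((n : G) • T : Sylow 2 G) = T' := by
      refine Sylow.subtype_injective (hP := ?_) (hQ := hT'U) ?_
      · rw [Sylow.coe_subgroup_smul]
        rintro _ ⟨t, ht, rfl⟩
        exact mul_mem (mul_mem n.2 (hTU ht)) (inv_mem n.2)
      · rw [← hn, Sylow.smul_subtype]
        exact Sylow.ext rfl
    rw [mul_smul, h2, smul_inv_smul]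
  have hgT : g * (n : G) ∈ (T : Subgroup G) := by
    rw [← normalizer_two h T]
    exact Sylow.smul_eq_iff_mem_normalizer.mp hgn
  have h3 := map_of_mem_normalizer (hTU hgT)
  have h4 : U.map (MulAut.conj (g * (n : G))).toMonoidHom
      = (U.map (MulAut.conj (n : G)).toMonoidHom).map (MulAut.conj g).toMonoidHom := by
    rw [Subgroup.map_map]
    congr 1
    ext x
    simp [mul_assoc]
  rw [map_of_mem_normalizer n.2, hg, h3] at h4
  exact hne h4

/-- Subgroups of order 24 are Klein normalisers. -/
theorem eq_normalizer_klein [Fact (Nat.Prime 2)] (M : Subgroup G) (hM : Nat.card M = 24) :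
    ∃ U : Subgroup G, IsKleinFour ↥U ∧ M = normalizer (U : Set G) := by
  obtain ⟨e⟩ := iso_s4 h hM
  let V : Subgroup (Equiv.Perm (Fin 4)) :=
    { carrier := {σ | σ = 1 ∨ (σ * σ = 1 ∧ ∀ i, σ i ≠ i)}
      one_mem' := Or.inl rfl
      mul_mem' := fun {a b} ha hb => (by decide +kernel : ∀ a b : Equiv.Perm (Fin 4),
        (a = 1 ∨ (a * a = 1 ∧ ∀ i, a i ≠ i)) → (b = 1 ∨ (b * b = 1 ∧ ∀ i, b i ≠ i)) →
        (a * b = 1 ∨ ((a * b) * (a * b) = 1 ∧ ∀ i, (a * b) i ≠ i))) a b ha hb
      inv_mem' := fun {a} ha => (by decide +kernel : ∀ a : Equiv.Perm (Fin 4),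
        (a = 1 ∨ (a * a = 1 ∧ ∀ i, a i ≠ i)) → (a⁻¹ = 1 ∨ (a⁻¹ * a⁻¹ = 1 ∧ ∀ i, a⁻¹ i ≠ i))) a ha }
  set φ := M.subtype.comp e.symm.toMonoidHom
  have hinj : Function.Injective φ := (Subgroup.subtype_injective _).comp e.symm.injective
  set U := V.map φ
  have hmemV : ∀ σ, σ ∈ V ↔ (σ = 1 ∨ (σ * σ = 1 ∧ ∀ i, σ i ≠ i)) := fun σ => Iff.rfl
  have hK : IsKleinFour ↥U := by
    refine isKleinFour_of_sq ?_ ?_
    · rw [← Nat.card_congr (V.equivMapOfInjective _ hinj).toEquiv]
      show Nat.card {σ : Equiv.Perm (Fin 4) // σ ∈ V} = 4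
      rw [Nat.card_congr (Equiv.subtypeEquivRight hmemV), Nat.card_eq_fintype_card, Fintype.card_subtype]
      decide +kernel
    · rintro _ ⟨σ, hσ, rfl⟩
      rcases hσ with rfl | ⟨h1, -⟩
      · simp
      · rw [← map_mul, h1, map_one]
  refine ⟨U, hK, Subgroup.eq_of_le_of_card_ge (fun m hm => mem_normalizer_of_map ?_)
    (by rw [card_normalizer_klein h U hK, hM])⟩
  refine Subgroup.eq_of_le_of_card_ge ?_
    (le_of_eq (Nat.card_congr (U.equivMapOfInjective _ (MulAut.conj m).injective).toEquiv))
  rintro _ ⟨_, ⟨σ, hσ, rfl⟩, rfl⟩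
  refine ⟨e ⟨m, hm⟩ * σ * (e ⟨m, hm⟩)⁻¹, ?_, ?_⟩
  · exact (by decide +kernel : ∀ a τ : Equiv.Perm (Fin 4), (a = 1 ∨ (a * a = 1 ∧ ∀ i, a i ≠ i)) →
      (τ * a * τ⁻¹ = 1 ∨ ((τ * a * τ⁻¹) * (τ * a * τ⁻¹) = 1 ∧ ∀ i, (τ * a * τ⁻¹) i ≠ i))) σ (e ⟨m, hm⟩) hσ
  · simp [φ]

/-- The order of a maximal subgroup. -/
theorem card_maximal (M : Subgroup G) (hM : IsCoatom M) : Nat.card M = 24 ∨ Nat.card M = 21 := by
  haveI : Fact (Nat.Prime 2) := ⟨Nat.prime_two⟩
  haveI : Fact (Nat.Prime 3) := ⟨by norm_num⟩
  haveI : Fact (Nat.Prime 7) := ⟨by norm_num⟩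
  letI := Fintype.ofFinite G
  have hd : Nat.card M ∣ 168 := h ▸ Subgroup.card_subgroup_dvd_card M
  have hidx := M.card_mul_index
  rw [h] at hidx
  have hbig := Nat.le_of_dvd (Nat.factorial_pos _) (Cfsg.Lib.SimpleOrder.two_mul_card_dvd (notComm h) M hM.1)
  rw [h] at hbig
  have h7 : 7 ≤ M.index ∨ Nat.card M = 28 := by
    by_contra hlt
    push Not at hlt
    have : M.index = 1 ∨ M.index = 2 ∨ M.index = 3 ∨ M.index = 4 ∨ M.index = 5 ∨ M.index = 6 := by
      have : M.index ≠ 0 := M.index_ne_zero_of_finite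
      omega
    rcases this with e | e | e | e | e | e <;> rw [e] at hbig hidx <;> norm_num [Nat.factorial] at hbig <;> omega
  have hmax : ∀ L : Subgroup G, M ≤ L → Nat.card L ≠ 168 → M = L := fun L hle hL =>
    ((hM.le_iff.mp hle).resolve_left fun e => hL (by rw [e, Subgroup.card_top, h])).symm
  have hNmax : ∀ L : Subgroup G, Nat.card L = 24 → M ≤ L → Nat.card M = 24 := fun L hL hle => by
    rw [hmax L hle (by omega), hL]
  have hKex : ∀ T : Sylow 2 G, ∃ L : Subgroup G, Nat.card L = 24 ∧ (T : Subgroup G) ≤ L := fun T => by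
    obtain ⟨⟨⟨U, hU, hK⟩⟩, -⟩ := Nat.card_pos_iff.mp (by rw [card_klein h T]; norm_num :
      0 < Nat.card {U : Subgroup G // U ≤ (T : Subgroup G) ∧ IsKleinFour ↥U})
    haveI := hK
    exact ⟨_, card_normalizer_klein h U hK, le_normalizer_of_index_two h hU (card_two h T) hK.card_four⟩
  have h2grp : ∀ k, Nat.card M = 2 ^ k → Nat.card M = 24 := fun k hk => by
    obtain ⟨T, hT⟩ := (IsPGroup.of_card (n := k) hk : IsPGroup 2 M).exists_le_sylow
    obtain ⟨L, hL, hTL⟩ := hKex T
    exact hNmax L hL (hT.trans hTL)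
  -- subgroups with a normal subgroup of order three
  have h3grp : Nat.card M ∣ 6 → 3 ∣ Nat.card M → Nat.card M = 24 := by
    intro h6 h3
    obtain ⟨x, hx⟩ := exists_prime_orderOf_dvd_card' (G := M) 3 h3
    have hxo : orderOf (x : G) = 3 := by rw [Subgroup.orderOf_coe, hx]
    obtain ⟨P, hP⟩ := exists_sylow_zpowers (card_three h) hxo
    -- the normaliser of `P` lies in a subgroup of order 24
    obtain ⟨T⟩ : Nonempty (Sylow 2 G) := inferInstance
    obtain ⟨L, hL, -⟩ := hKex T
    obtain ⟨x₀, hx₀⟩ := exists_prime_orderOf_dvd_card' (G := L) 3 (by rw [hL]; norm_num)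
    obtain ⟨c, hc⟩ := isConj_iff.mp (conj_three h (s := (x₀ : G)) (t := (x : G)) (by rw [Subgroup.orderOf_coe, hx₀]) hxo)
    set L' := L.map (MulAut.conj c).toMonoidHom
    have hL' : Nat.card L' = 24 := by
      rw [← Nat.card_congr (L.equivMapOfInjective _ (MulAut.conj c).injective).toEquiv, hL]
    have hxL : (x : G) ∈ L' := hc ▸ ⟨x₀, x₀.2, rfl⟩
    obtain ⟨e⟩ := iso_s4 h hL'
    -- an involution of `L'` inverting `x`
    obtain ⟨τ, hτ⟩ := (by decide +kernel : ∀ σ : Equiv.Perm (Fin 4), σ * σ * σ = 1 → σ ≠ 1 →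
      ∃ τ : Equiv.Perm (Fin 4), τ * σ * τ⁻¹ = σ * σ) (e ⟨x, hxL⟩)
      (by rw [← map_mul, ← map_mul, map_eq_one_iff e e.injective]
          exact Subtype.ext (by
            show (x : G) * x * x = 1
            rw [← sq, ← pow_succ, show 2 + 1 = 3 from rfl, ← hxo]; exact pow_orderOf_eq_one _))
      (fun hh => by
        rw [map_eq_one_iff e e.injective] at hh
        have h0 : (x : G) = 1 := congrArg Subtype.val hh
        rw [h0, orderOf_one] at hxo
        omega)
    obtain ⟨y, rfl⟩ := e.surjective τ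
    rw [← map_inv, ← map_mul, ← map_mul, ← map_mul] at hτ
    have hy : (y : G) * x * (y : G)⁻¹ = x * x := congrArg Subtype.val (e.injective hτ)
    have hyN : (y : G) ∈ normalizer ((P : Subgroup G) : Set G) := by
      apply mem_normalizer_of_map
      refine Subgroup.eq_of_le_of_card_ge ?_
        (le_of_eq (Nat.card_congr ((P : Subgroup G).equivMapOfInjective _ (MulAut.conj (y : G)).injective).toEquiv))
      rw [hP, MonoidHom.map_zpowers, zpowers_le]
      show (y : G) * x * (y : G)⁻¹ ∈ _
      rw [hy]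
      exact mul_mem (mem_zpowers _) (mem_zpowers _)
    have hNL : normalizer ((P : Subgroup G) : Set G) ≤ L' := by
      have hsub : normalizer ((P : Subgroup G) : Set G) ⊓ L' = normalizer ((P : Subgroup G) : Set G) := by
        refine Subgroup.eq_of_le_of_card_ge inf_le_left ?_
        rw [normalizer_three h P]
        have hPle : (P : Subgroup G) ≤ normalizer ((P : Subgroup G) : Set G) ⊓ L' :=
          le_inf Subgroup.le_normalizer (hP.le.trans (zpowers_le.mpr hxL))
        have hd3 := Subgroup.card_dvd_of_le hPle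
        rw [card_three h P] at hd3
        obtain ⟨d, hd'⟩ := hd3
        have hne : d ≠ 1 := by
          rintro rfl
          have heq := Subgroup.eq_of_le_of_card_ge hPle (by rw [hd', card_three h P])
          have hyP : (y : G) ∈ zpowers (x : G) := by rw [← hP, heq]; exact ⟨hyN, y.2⟩
          obtain ⟨i, hi⟩ := mem_zpowers_iff.mp hyP
          rw [← hi] at hy
          have : (x : G) * x = x := by
            rw [← hy, ((Commute.refl (x : G)).zpow_left i).eq, mul_inv_cancel_right]
          have h0 : (x : G) = 1 := mul_eq_left.mp this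
          rw [h0, orderOf_one] at hxo
          omega
        have : 0 < Nat.card ↥(normalizer ((P : Subgroup G) : Set G) ⊓ L') := Nat.card_pos
        nlinarith [Nat.two_le_iff d |>.mpr ⟨by rintro rfl; omega, hne⟩]
      exact hsub ▸ inf_le_right
    have hMN : M ≤ normalizer ((P : Subgroup G) : Set G) := by
      intro m hm
      apply mem_normalizer_of_map
      refine Subgroup.eq_of_le_of_card_ge ?_
        (le_of_eq (Nat.card_congr ((P : Subgroup G).equivMapOfInjective _ (MulAut.conj m).injective).toEquiv))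
      rw [hP, MonoidHom.map_zpowers, zpowers_le]
      show m * (x : G) * m⁻¹ ∈ zpowers (x : G)
      -- `zpowers x` is normal in `M`
      have hidx2 : ((zpowers (x : G)).subgroupOf M).index = 1 ∨ ((zpowers (x : G)).subgroupOf M).index = 2 := by
        have h1 := ((zpowers (x : G)).subgroupOf M).card_mul_index
        rw [Nat.card_congr (Subgroup.subgroupOfEquivOfLe (zpowers_le.mpr x.2)).toEquiv, Nat.card_zpowers, hxo] at h1
        obtain ⟨d, hd'⟩ := h6
        rw [← h1, mul_assoc] at hd'
        have h5 : ((zpowers (x : G)).subgroupOf M).index * d = 2 := by omega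
        exact (Nat.dvd_prime Nat.prime_two).mp ⟨d, h5.symm⟩
      haveI : ((zpowers (x : G)).subgroupOf M).Normal := by
        rcases hidx2 with e | e
        · rw [Subgroup.index_eq_one] at e; rw [e]; infer_instance
        · exact Subgroup.normal_of_index_eq_two e
      exact (inferInstance : ((zpowers (x : G)).subgroupOf M).Normal).conj_mem x (mem_zpowers (x : G)) ⟨m, hm⟩
    exact hNmax L' hL' (hMN.trans hNL)
  have h7case : 7 ∣ Nat.card M → Nat.card M ≤ 28 → Nat.card M = 21 := by
    intro h7 hle
    obtain ⟨x, hx⟩ := exists_prime_orderOf_dvd_card' (G := M) 7 h7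
    obtain ⟨Q⟩ : Nonempty (Sylow 7 M) := inferInstance
    have hQc : Nat.card (Q : Subgroup M) = 7 := by
      rw [card_sylow_pow (k := 1) Q (by rw [pow_one]; exact h7) (fun hh => by
        have := hh.trans hd
        norm_num at this), pow_one]
    have hn := card_sylow_modEq_one 7 M
    have hdn : Nat.card (Sylow 7 M) ∣ (Q : Subgroup M).index := Q.card_dvd_index
    have h1 := (Q : Subgroup M).card_mul_index
    rw [hQc] at h1
    have hpos : 0 < Nat.card M := Nat.card_pos
    have hle4 : Nat.card (Sylow 7 M) ≤ 4 := (Nat.le_of_dvd (by omega) hdn).trans (by omega)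
    have hn1 : Nat.card (Sylow 7 M) = 1 := by
      rw [Nat.ModEq] at hn
      omega
    haveI := (Nat.card_eq_one_iff_unique.mp hn1).1
    have hQn : (Q : Subgroup M).Normal := Q.normal_of_subsingleton
    set Q' : Sylow 7 G := Sylow.ofCard ((Q : Subgroup M).map M.subtype) (by
      rw [← Nat.card_congr ((Q : Subgroup M).equivMapOfInjective _ M.subtype_injective).toEquiv, hQc, h]
      rw [show (168 : ℕ) = 7 * 24 from rfl, Nat.factorization_mul (by norm_num) (by norm_num), Finsupp.coe_add,
        Pi.add_apply, Nat.Prime.factorization_self (by norm_num),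
        Nat.factorization_eq_zero_of_not_dvd (by norm_num), pow_one])
    have hMN : M ≤ normalizer ((Q' : Subgroup G) : Set G) := by
      intro m hm
      apply mem_normalizer_of_map
      refine Subgroup.eq_of_le_of_card_ge ?_
        (le_of_eq (Nat.card_congr ((Q' : Subgroup G).equivMapOfInjective _ (MulAut.conj m).injective).toEquiv))
      rintro _ ⟨_, ⟨q, hq, rfl⟩, rfl⟩
      exact ⟨_, hQn.conj_mem q hq ⟨m, hm⟩, rfl⟩
    rw [hmax _ hMN (by rw [normalizer_seven h]; norm_num), normalizer_seven h]
  have h12 : Nat.card M = 12 → Nat.card M = 24 := by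
    intro h12
    obtain ⟨R⟩ : Nonempty (Sylow 3 M) := inferInstance
    have hRc : Nat.card (R : Subgroup M) = 3 := by
      rw [card_sylow_pow (k := 1) R (by rw [h12]; norm_num) (by rw [h12]; norm_num), pow_one]
    -- not normal
    have hn1 : Nat.card (Sylow 3 M) ≠ 1 := by
      intro e
      haveI := (Nat.card_eq_one_iff_unique.mp e).1
      have hRn : (R : Subgroup M).Normal := R.normal_of_subsingleton
      obtain ⟨x, hx⟩ := exists_prime_orderOf_dvd_card' (G := (R : Subgroup M)) 3 (by rw [hRc])
      have hxo : orderOf ((x : M) : G) = 3 := by rw [Subgroup.orderOf_coe, Subgroup.orderOf_coe, hx]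
      obtain ⟨P, hP⟩ := exists_sylow_zpowers (card_three h) hxo
      have hPR : (P : Subgroup G) = (R : Subgroup M).map M.subtype := by
        rw [hP]
        refine Subgroup.eq_of_le_of_card_ge (zpowers_le.mpr ⟨x, x.2, rfl⟩) ?_
        rw [← Nat.card_congr ((R : Subgroup M).equivMapOfInjective _ M.subtype_injective).toEquiv, hRc,
          Nat.card_zpowers, hxo]
      have hle : M ≤ normalizer ((P : Subgroup G) : Set G) := by
        intro m hm
        apply mem_normalizer_of_map
        refine Subgroup.eq_of_le_of_card_ge ?_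
          (le_of_eq (Nat.card_congr ((P : Subgroup G).equivMapOfInjective _ (MulAut.conj m).injective).toEquiv))
        rw [hPR]
        rintro _ ⟨_, ⟨q, hq, rfl⟩, rfl⟩
        exact ⟨_, hRn.conj_mem q hq ⟨m, hm⟩, rfl⟩
      have := Subgroup.card_le_of_le hle
      rw [h12, normalizer_three h P] at this
      omega
    -- so the Sylow 2-subgroup is normal
    obtain ⟨S⟩ : Nonempty (Sylow 2 M) := inferInstance
    have hSc : Nat.card (S : Subgroup M) = 4 := by
      rw [card_sylow_pow (k := 2) S (by rw [h12]; norm_num) (by rw [h12]; norm_num)]; norm_num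
    haveI : Fintype M := Fintype.ofFinite M
    have hn4 : Nat.card (Sylow 3 M) = 4 := by
      have hd' : Nat.card (Sylow 3 M) ∣ 4 := by
        have h1 := (R : Subgroup M).card_mul_index
        rw [hRc, h12] at h1
        exact (R.card_dvd_index).trans ⟨1, by omega⟩
      have hm' := card_sylow_modEq_one 3 M
      rw [Nat.ModEq] at hm'
      have := Nat.le_of_dvd (by norm_num) hd'
      have : 0 < Nat.card (Sylow 3 M) := Nat.card_pos
      omega
    have h8 : Nat.card {g : M // orderOf g = 3} = 8 := by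
      rw [card_order_eq (fun P => by rw [card_sylow_pow (k := 1) P (by rw [h12]; norm_num) (by rw [h12]; norm_num), pow_one]), hn4]
    have hSeq : ∀ g : M, g ∈ (S : Subgroup M) ↔ orderOf g ≠ 3 := by
      have hsub : (Finset.univ.filter fun g : M => g ∈ (S : Subgroup M)) =
          Finset.univ.filter fun g : M => orderOf g ≠ 3 := by
        refine Finset.eq_of_subset_of_card_le (fun g hg => ?_) ?_
        · simp only [Finset.mem_filter, Finset.mem_univ, true_and] at hg ⊢
          intro e
          have := Subgroup.orderOf_dvd_natCard _ hg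
          rw [hSc, e] at this
          omega
        · rw [← Fintype.card_subtype, ← Fintype.card_subtype, Fintype.card_subtype_compl,
            ← Nat.card_eq_fintype_card, ← Nat.card_eq_fintype_card, ← Nat.card_eq_fintype_card, h8, h12]
          exact hSc.ge
      intro g
      simpa using Finset.ext_iff.mp hsub g
    have hSn : (S : Subgroup M).Normal := ⟨fun q hq m => by
      rw [hSeq] at hq ⊢
      rwa [← MulAut.conj_apply, MulEquiv.orderOf_eq]⟩
    set U := (S : Subgroup M).map M.subtype
    have hU4 : Nat.card U = 4 := by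
      rw [← Nat.card_congr ((S : Subgroup M).equivMapOfInjective _ M.subtype_injective).toEquiv, hSc]
    have hMU : M ≤ normalizer (U : Set G) := by
      intro m hm
      apply mem_normalizer_of_map
      refine Subgroup.eq_of_le_of_card_ge ?_
        (le_of_eq (Nat.card_congr (U.equivMapOfInjective _ (MulAut.conj m).injective).toEquiv))
      rintro _ ⟨_, ⟨q, hq, rfl⟩, rfl⟩
      exact ⟨_, hSn.conj_mem q hq ⟨m, hm⟩, rfl⟩
    by_cases hsq : ∀ x ∈ U, x * x = 1
    · have hK := isKleinFour_of_sq hU4 hsq
      exact hNmax _ (card_normalizer_klein h U hK) hMU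
    · exfalso
      push Not at hsq
      obtain ⟨x, hxU, hx2⟩ := hsq
      have hxo : orderOf x = 4 := by
        have h1 := Subgroup.orderOf_dvd_natCard _ hxU
        rw [hU4] at h1
        obtain ⟨i, hi, hxi⟩ := (Nat.dvd_prime_pow Nat.prime_two).mp (show orderOf x ∣ 2 ^ 2 from h1)
        interval_cases i
        · exfalso; rw [orderOf_eq_one_iff.mp hxi, mul_one] at hx2; exact hx2 rfl
        · exfalso; exact hx2 (by rw [← sq]; exact orderOf_dvd_iff_pow_eq_one.mp (by rw [hxi]; norm_num))
        · exact hxi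
      have hgen : zpowers x = U := Subgroup.eq_of_le_of_card_ge (zpowers_le.mpr hxU) (by rw [Nat.card_zpowers, hxo, hU4])
      have hz : orderOf (x * x) = 2 := by rw [← sq, orderOf_pow' x (by norm_num), hxo]; norm_num
      have hle : M ≤ centralizer ({x * x} : Set G) := by
        intro m hm
        rw [mem_centralizer_singleton_iff]
        have hmem : m * x * m⁻¹ ∈ zpowers x := by
          rw [hgen]; exact (Subgroup.mem_normalizer_iff.mp (hMU hm) x).mp hxU
        obtain ⟨n, hn⟩ := (Submonoid.mem_powers_iff _ _).mp (mem_powers_iff_mem_zpowers.mpr hmem)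
        have ho : orderOf (m * x * m⁻¹) = 4 := by rw [← MulAut.conj_apply, MulEquiv.orderOf_eq, hxo]
        rw [← hn, ← pow_mod_orderOf x n, hxo] at ho
        have hsq' : m * (x * x) * m⁻¹ = x * x := by
          rw [show m * (x * x) * m⁻¹ = (m * x * m⁻¹) * (m * x * m⁻¹) by group, ← hn, ← pow_mod_orderOf x n, hxo]
          have : n % 4 < 4 := Nat.mod_lt _ (by norm_num)
          interval_cases hm4 : n % 4
          · rw [pow_zero, orderOf_one] at ho; omega
          · rw [pow_one]
          · rw [orderOf_pow' x (by norm_num), hxo] at ho; norm_num at ho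
          · rw [← pow_add, ← sq, show 3 + 3 = 4 + 2 from rfl, pow_add, ← hxo, pow_orderOf_eq_one, one_mul]
        calc m * (x * x) = m * (x * x) * m⁻¹ * m := by group
          _ = x * x * m := by rw [hsq']
      have h1 := Nat.le_of_dvd (by norm_num) ((Subgroup.card_dvd_of_le hle).trans (card_centralizer_involution h hz))
      omega
  rcases h7 with h7 | h28
  · have hle24 : Nat.card M ≤ 24 := by nlinarith
    rcases (by decide +kernel : ∀ d ∈ Nat.divisors 168, d ≤ 24 →
      d = 1 ∨ d = 2 ∨ d = 4 ∨ d = 8 ∨ d = 3 ∨ d = 6 ∨ d = 12 ∨ d = 7 ∨ d = 14 ∨ d = 21 ∨ d = 24) _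
      (Nat.mem_divisors.mpr ⟨hd, by norm_num⟩) hle24 with e | e | e | e | e | e | e | e | e | e | e
    · exact Or.inl (h2grp 0 e)
    · exact Or.inl (h2grp 1 e)
    · exact Or.inl (h2grp 2 e)
    · exact Or.inl (h2grp 3 e)
    · exact Or.inl (h3grp (by rw [e]; norm_num) (by rw [e]))
    · exact Or.inl (h3grp (by rw [e]) (by rw [e]; norm_num))
    · exact Or.inl (h12 e)
    · exact Or.inr (h7case (by rw [e]) (by omega))
    · exact Or.inr (h7case (by rw [e]; norm_num) (by omega))
    · exact Or.inr e
    · exact Or.inl e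
  · exact Or.inr (h7case (by rw [h28]; norm_num) (by omega))

end Cfsg.Lib.SimpleOrder.O168
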