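import Cfsg.Agent.Lib.SimpleOrder.Order168
import Cfsg.Agent.Lib.Characters.Integrality

/-!
# Sylow 2-subgroups and classes of a simple group of order 168
-/

set_option autoImplicit false
set_option linter.unusedSectionVars false
set_option linter.style.longLine false
set_option linter.style.haveILetI false

namespace Cfsg.Lib.SimpleOrder.O168

open Subgroup
open scoped Classical

theorem d4_roots : ∀ z : DihedralGroup 4, z ≠ 1 → (∀ x, x * z = z * x) →
    (Finset.univ.filter fun g : DihedralGroup 4 => g * g = z).card = 2 ∧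
    (∀ g g' : DihedralGroup 4, g * g = z → g' * g' = z → ∃ x, x * g * x⁻¹ = g') ∧
    (∀ g : DihedralGroup 4, g * g ≠ 1 → g * g = z) := by
  decide +kernel

variable {G : Type*} [Group G] [Finite G] [IsSimpleGroup G] (h : Nat.card G = 168)

include h

theorem not_abelian_two [Fact (Nat.Prime 2)] (T : Sylow 2 G) :
    ∃ a ∈ (T : Subgroup G), ∃ b ∈ (T : Subgroup G), a * b ≠ b * a := by
  by_contra! hab
  letI := Fintype.ofFinite G
  set N := normalizer ((T : Subgroup G) : Set G)
  by_cases hle : N ≤ centralizer ((T : Subgroup G) : Set G)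
  · have hcard := (MonoidHom.ker_transferSylow_isComplement' T hle).card_mul_card
    rw [card_two h, h] at hcard
    rcases IsSimpleGroup.eq_bot_or_eq_top_of_normal (MonoidHom.transferSylow T hle).ker inferInstance with e | e
    · rw [e, Subgroup.card_bot] at hcard; omega
    · rw [e, Subgroup.card_top, h] at hcard; omega
  obtain ⟨g, hgN, hgC⟩ := SetLike.not_le_iff_exists.mp hle
  obtain ⟨l, hl, y, hyg, ⟨k, hk⟩, hyC⟩ : ∃ l : ℕ, l.Prime ∧ ∃ y ∈ zpowers g,
      (∃ k : ℕ, orderOf y = l ^ k) ∧ y ∉ centralizer ((T : Subgroup G) : Set G) := by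
    by_contra! hall
    exact hgC (Cfsg.Lib.Transfer.mem_centralizer_of_prime_parts hall)
  have hyN : y ∈ N := (zpowers_le.mpr hgN) hyg
  have hTC : (T : Subgroup G) ≤ centralizer ((T : Subgroup G) : Set G) := fun a ha =>
    Subgroup.mem_centralizer_iff.mpr fun b hb => hab b hb a ha
  have hy1 : y ≠ 1 := fun e => hyC (e ▸ one_mem _)
  have hl2 : l ≠ 2 := by
    rintro rfl
    have hY : IsPGroup 2 (zpowers y) := IsPGroup.of_card (n := k) (by rw [Nat.card_zpowers, hk])
    have : y ∈ zpowers y ⊓ normalizer (T : Set G) := ⟨mem_zpowers y, hyN⟩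
    rw [hY.inf_normalizer_sylow T] at this
    exact hyC (hTC this.2)
  have hpow : ∀ b : ℕ, b ∣ l ^ k → ¬ 2 ∣ b := fun b hb hd =>
    hl2 ((Nat.prime_dvd_prime_iff_eq Nat.prime_two hl).mp (Nat.prime_two.dvd_of_dvd_pow (hd.trans hb))).symm
  have hq : orderOf y = 3 ∨ orderOf y = 7 := by
    rcases orderOf_cases h y with e | e | e | e | e
    · exact absurd (orderOf_eq_one_iff.mp e) hy1
    · exact absurd (by rw [e] : 2 ∣ orderOf y) (hpow _ (hk ▸ dvd_rfl))
    · exact Or.inl e
    · exact absurd (by rw [e]; norm_num : 2 ∣ orderOf y) (hpow _ (hk ▸ dvd_rfl))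
    · exact Or.inr e
  have hCy : centralizer ({y} : Set G) = zpowers y := by
    rcases hq with e | e
    · exact centralizer_three h e
    · exact centralizer_seven h e
  haveI : Fact l.Prime := ⟨hl⟩
  have hfix : (T : Subgroup G) ⊓ centralizer (zpowers y : Set G) = ⊥ := by
    rw [eq_bot_iff]
    rintro a ⟨haT, haC⟩
    have h1 : a ∈ centralizer ({y} : Set G) :=
      mem_centralizer_singleton_iff.mpr ((Subgroup.mem_centralizer_iff.mp haC) y (mem_zpowers y)).symm
    rw [hCy] at h1
    have h2 := Subgroup.orderOf_dvd_natCard _ h1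
    have h3 := Subgroup.orderOf_dvd_natCard _ haT
    rw [Nat.card_zpowers] at h2
    rw [card_two h] at h3
    rw [mem_bot, ← orderOf_eq_one_iff]
    rcases hq with e | e <;> rw [e] at h2 <;>
      exact Nat.eq_one_of_dvd_coprimes (by norm_num) h2 h3
  have hmod := Cfsg.Lib.Transfer.card_modEq_card_inf_centralizer (p := l) (T : Subgroup G) (zpowers y)
    (IsPGroup.of_card (n := k) (by rw [Nat.card_zpowers, hk])) (zpowers_le.mpr hyN)
  rw [hfix, card_two h, Subgroup.card_bot] at hmod
  have h7 : l ∣ 7 := (Nat.modEq_iff_dvd' (by norm_num)).mp hmod.symm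
  obtain rfl : l = 7 := (Nat.prime_dvd_prime_iff_eq hl (by norm_num)).mp h7
  have hy7 : orderOf y = 7 := by
    rcases hq with e | e
    · rw [hk] at e
      rcases k with - | k
      · norm_num at e
      · have : 7 ∣ 7 ^ (k + 1) := dvd_pow_self 7 (by omega)
        omega
    · exact e
  -- then there would be at most three Sylow 2-subgroups
  have hN1 : 7 ∣ Nat.card N := hy7 ▸ Subgroup.orderOf_dvd_natCard N hyN
  have hN2 : 8 ∣ Nat.card N := card_two h T ▸ Subgroup.card_dvd_of_le Subgroup.le_normalizer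
  have hidx := Subgroup.card_mul_index N
  rw [h] at hidx
  obtain ⟨d, hd⟩ := Nat.Coprime.mul_dvd_of_dvd_of_dvd (by norm_num) hN1 hN2
  rw [hd] at hidx
  have hNtop : N ≠ ⊤ := by
    intro e
    have hn : (T : Subgroup G).Normal := normalizer_eq_top_iff.mp e
    rcases IsSimpleGroup.eq_bot_or_eq_top_of_normal (T : Subgroup G) hn with e' | e'
    · have := card_two h T; rw [e', Subgroup.card_bot] at this; omega
    · have := card_two h T; rw [e', Subgroup.card_top, h] at this; omega
  have hdiv := Nat.le_of_dvd (Nat.factorial_pos _) (Cfsg.Lib.SimpleOrder.two_mul_card_dvd (notComm h) N hNtop)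
  have h3 : d * N.index = 3 := by
    rw [mul_assoc] at hidx
    omega
  have hle : N.index ≤ 3 := Nat.le_of_dvd (by norm_num) ⟨d, by rw [← h3, mul_comm]⟩
  have := Nat.factorial_le hle
  rw [h] at hdiv
  norm_num [Nat.factorial] at this
  omega

/-- A non-trivial central element of a Sylow 2-subgroup and its centraliser. -/
theorem centralizer_central [Fact (Nat.Prime 2)] (T : Sylow 2 G) {z : G} (hz : z ∈ (T : Subgroup G)) (hz1 : z ≠ 1)
    (hc : ∀ t ∈ (T : Subgroup G), t * z = z * t) :
    orderOf z = 2 ∧ centralizer ({z} : Set G) = (T : Subgroup G) := by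
  have hTle : ∀ w : G, (∀ t ∈ (T : Subgroup G), t * w = w * t) → (T : Subgroup G) ≤ centralizer ({w} : Set G) :=
    fun w hw t ht => mem_centralizer_singleton_iff.mpr (hw t ht)
  have h2 : orderOf z = 2 := by
    rcases orderOf_cases h z with e | e | e | e | e
    · exact absurd (orderOf_eq_one_iff.mp e) hz1
    · exact e
    · have := Subgroup.orderOf_dvd_natCard _ hz
      rw [card_two h, e] at this
      omega
    · exfalso
      obtain ⟨a, ha, b, hb, hab⟩ := not_abelian_two h T
      apply hab
      -- `zpowers z` is central of index two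
      set Z := (zpowers z).subgroupOf (T : Subgroup G)
      have hle : zpowers z ≤ (T : Subgroup G) := zpowers_le.mpr hz
      have hidx : Z.index = 2 := by
        have h1 := Z.card_mul_index
        rw [Nat.card_congr (Subgroup.subgroupOfEquivOfLe hle).toEquiv, Nat.card_zpowers, e, card_two h T] at h1
        omega
      have hcz : ∀ t ∈ (T : Subgroup G), ∀ w ∈ zpowers z, t * w = w * t := fun t ht w hw => by
        obtain ⟨i, rfl⟩ := mem_zpowers_iff.mp hw
        exact ((show Commute t z from hc t ht).zpow_right i).eq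
      by_cases haz : a ∈ zpowers z
      · exact (hcz b hb a haz).symm
      by_cases hbz : b ∈ zpowers z
      · exact hcz a ha b hbz
      have hmem : a⁻¹ * b ∈ zpowers z := by
        have := (Subgroup.mul_mem_iff_of_index_two hidx (a := (⟨a, ha⟩ : (T : Subgroup G))⁻¹) (b := ⟨b, hb⟩)).mpr
          (iff_of_false (fun hh => haz (inv_mem_iff.mp hh)) hbz)
        exact this
      have h1 := hcz a ha _ hmem
      calc a * b = a * (a * (a⁻¹ * b)) := by group
        _ = a * ((a⁻¹ * b) * a) := by rw [h1]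
        _ = b * a := by group
    · have := Subgroup.orderOf_dvd_natCard _ hz
      rw [card_two h, e] at this
      omega
  refine ⟨h2, (Subgroup.eq_of_le_of_card_ge (hTle z hc) ?_).symm⟩
  rw [card_two h]
  exact Nat.le_of_dvd (by norm_num) (card_centralizer_involution h h2)

theorem exists_central [Fact (Nat.Prime 2)] (T : Sylow 2 G) :
    ∃ z ∈ (T : Subgroup G), z ≠ 1 ∧ ∀ t ∈ (T : Subgroup G), t * z = z * t := by
  haveI : Nontrivial ↥(T : Subgroup G) := Finite.one_lt_card_iff_nontrivial.mp (by rw [card_two h]; norm_num)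
  haveI := T.isPGroup'.center_nontrivial
  obtain ⟨z, hz⟩ := exists_ne (1 : Subgroup.center ↥(T : Subgroup G))
  exact ⟨(z : ↥(T : Subgroup G)), SetLike.coe_mem _, fun e => hz (Subtype.ext (Subtype.ext e)),
    fun t ht => congrArg Subtype.val (Subgroup.mem_center_iff.mp z.2 ⟨t, ht⟩)⟩

theorem normalizer_two [Fact (Nat.Prime 2)] (T : Sylow 2 G) :
    normalizer ((T : Subgroup G) : Set G) = (T : Subgroup G) := by
  refine le_antisymm (fun g hg => ?_) Subgroup.le_normalizer
  obtain ⟨z, hz, hz1, hzc⟩ := exists_central h T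
  obtain ⟨hz2, hzC⟩ := centralizer_central h T hz hz1 hzc
  -- the centre has order two
  have hw : g * z * g⁻¹ ∈ (T : Subgroup G) := (Subgroup.mem_normalizer_iff.mp hg z).mp hz
  have hw1 : g * z * g⁻¹ ≠ 1 := fun e => hz1 (conj_eq_one_iff.mp e)
  have hwc : ∀ t ∈ (T : Subgroup G), t * (g * z * g⁻¹) = g * z * g⁻¹ * t := by
    intro t ht
    have h1 := hzc _ ((Subgroup.mem_normalizer_iff''.mp hg t).mp ht)
    calc t * (g * z * g⁻¹) = g * ((g⁻¹ * t * g) * z) * g⁻¹ := by group
      _ = g * (z * (g⁻¹ * t * g)) * g⁻¹ := by rw [h1]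
      _ = _ := by group
  by_cases heq : g * z * g⁻¹ = z
  · rw [← hzC, mem_centralizer_singleton_iff]
    calc g * z = g * z * g⁻¹ * g := by group
      _ = z * g := by rw [heq]
  exfalso
  obtain ⟨hw2, -⟩ := centralizer_central h T hw hw1 hwc
  set w := g * z * g⁻¹ with hwdef
  set Z := Subgroup.center ↥(T : Subgroup G)
  have hZmem : ∀ a : ↥(T : Subgroup G), (∀ t ∈ (T : Subgroup G), t * (a : G) = a * t) → a ∈ Z := fun a ha =>
    Subgroup.mem_center_iff.mpr fun t => Subtype.ext (ha t t.2)
  have h3 : 3 ≤ Nat.card Z := by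
    let f : Fin 3 → Z := ![1, ⟨⟨z, hz⟩, hZmem _ hzc⟩, ⟨⟨w, hw⟩, hZmem _ hwc⟩]
    refine (Nat.card_fin 3).symm.le.trans (Nat.card_le_card_of_injective f fun i j hij => ?_)
    have hij' := congrArg (fun x : Z => ((x : ↥(T : Subgroup G)) : G)) hij
    fin_cases i <;> fin_cases j <;> first
      | rfl
      | exact absurd hij' hz1
      | exact absurd hij'.symm hz1
      | exact absurd hij' hw1
      | exact absurd hij'.symm hw1
      | exact absurd hij' heq
      | exact absurd hij'.symm heq
  have hd : Nat.card Z ∣ 8 := card_two h T ▸ Subgroup.card_subgroup_dvd_card Z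
  have h4 : 4 ≤ Nat.card Z := by
    have := Nat.le_of_dvd (by norm_num) hd
    interval_cases hh : Nat.card Z <;> omega
  haveI : IsCyclic (↥(T : Subgroup G) ⧸ Z) := by
    have h5 := Z.card_mul_index
    rw [card_two h T] at h5
    have h6 : Z.index ≤ 2 := by nlinarith
    rw [Subgroup.index_eq_card] at h6
    rcases (show Nat.card (↥(T : Subgroup G) ⧸ Z) = 1 ∨ Nat.card (↥(T : Subgroup G) ⧸ Z) = 2 from by
      have : 0 < Nat.card (↥(T : Subgroup G) ⧸ Z) := Nat.card_pos
      omega) with e | e
    · exact isCyclic_of_card_dvd_prime (p := 2) (by rw [e]; norm_num)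
    · exact isCyclic_of_prime_card (p := 2) e
  obtain ⟨a, ha, b, hb, hab⟩ := not_abelian_two h T
  exact hab (congrArg Subtype.val (commutative_of_cyclic_center_quotient (QuotientGroup.mk' Z)
    (by rw [QuotientGroup.ker_mk']) (⟨a, ha⟩ : ↥(T : Subgroup G)) ⟨b, hb⟩))

theorem n_two : Nat.card (Sylow 2 G) = 21 := by
  haveI : Fact (Nat.Prime 2) := ⟨Nat.prime_two⟩
  obtain ⟨T⟩ : Nonempty (Sylow 2 G) := inferInstance
  have h1 : Nat.card (Sylow 2 G) = (normalizer ((T : Subgroup G) : Set G)).index := T.card_eq_index_normalizer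
  have h2 := Subgroup.card_mul_index (normalizer ((T : Subgroup G) : Set G))
  rw [← h1, normalizer_two h T, card_two h T, h] at h2
  omega

theorem count_three : Nat.card {g : G // orderOf g = 3} = 56 := by
  haveI : Fact (Nat.Prime 3) := ⟨by norm_num⟩
  rw [card_order_eq (card_three h), n_three h]

theorem count_seven : Nat.card {g : G // orderOf g = 7} = 48 := by
  haveI : Fact (Nat.Prime 7) := ⟨by norm_num⟩
  rw [card_order_eq (card_seven h), n_seven h]

theorem count_two_four : Nat.card {g : G // orderOf g = 2} + Nat.card {g : G // orderOf g = 4} = 63 := by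
  letI := Fintype.ofFinite G
  have hs := Finset.card_eq_sum_card_fiberwise (s := (Finset.univ : Finset G)) (t := ({1, 2, 3, 4, 7} : Finset ℕ))
    (f := fun g => orderOf g) (fun g _ => by
      rcases orderOf_cases h g with e | e | e | e | e <;> simp [e])
  simp only [Finset.card_univ, ← Nat.card_eq_fintype_card] at hs
  have e : ∀ k, (Finset.univ.filter fun g : G => orderOf g = k).card = Nat.card {g : G // orderOf g = k} :=
    fun k => by rw [Nat.card_eq_fintype_card, Fintype.card_subtype]
  have h1 : Nat.card {g : G // orderOf g = 1} = 1 := by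
    rw [Nat.card_eq_one_iff_unique]
    exact ⟨⟨fun a b => Subtype.ext ((orderOf_eq_one_iff.mp a.2).trans (orderOf_eq_one_iff.mp b.2).symm)⟩,
      ⟨⟨1, orderOf_one⟩⟩⟩
  rw [Finset.sum_insert (by decide), Finset.sum_insert (by decide), Finset.sum_insert (by decide),
    Finset.sum_pair (by decide), e, e, e, e, e, h1, count_three h, count_seven h, h] at hs
  omega

theorem nonempty_dihedral [Fact (Nat.Prime 2)] (T : Sylow 2 G) :
    Nonempty (↥(T : Subgroup G) ≃* DihedralGroup 4) := by
  have hord : ∀ g ∈ (T : Subgroup G), orderOf g = 1 ∨ orderOf g = 2 ∨ orderOf g = 4 := fun g hg => by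
    have h1 := Subgroup.orderOf_dvd_natCard _ hg
    rw [card_two h] at h1
    rcases orderOf_cases h g with e | e | e | e | e <;> rw [e] at h1 <;> omega
  obtain ⟨r, hrT, hr4⟩ : ∃ r ∈ (T : Subgroup G), orderOf r = 4 := by
    by_contra! hne
    obtain ⟨a, ha, b, hb, hab⟩ := not_abelian_two h T
    have hsq : ∀ g ∈ (T : Subgroup G), g⁻¹ = g := fun g hg => by
      refine inv_eq_of_mul_eq_one_right ?_
      rw [← sq, ← orderOf_dvd_iff_pow_eq_one]
      rcases hord g hg with e | e | e
      · rw [e]; norm_num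
      · rw [e]
      · exact absurd e (hne g hg)
    exact hab (by rw [← hsq _ (mul_mem ha hb), mul_inv_rev, hsq a ha, hsq b hb])
  set R := (zpowers r).subgroupOf (T : Subgroup G)
  have hle : zpowers r ≤ (T : Subgroup G) := zpowers_le.mpr hrT
  have hidx : R.index = 2 := by
    have h1 := R.card_mul_index
    rw [Nat.card_congr (Subgroup.subgroupOfEquivOfLe hle).toEquiv, Nat.card_zpowers, hr4, card_two h T] at h1
    omega
  haveI : R.Normal := Subgroup.normal_of_index_eq_two hidx
  obtain ⟨s, hsT, hs, hsr⟩ : ∃ s ∈ (T : Subgroup G), orderOf s = 2 ∧ s ∉ zpowers r := by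
    by_contra! hall
    -- every Sylow 2-subgroup has a unique involution
    have hT : ∀ a ∈ (T : Subgroup G), orderOf a = 2 → a = r ^ 2 := by
      intro a ha ha2
      have ha' := hall a ha ha2
      obtain ⟨n, rfl⟩ := (Submonoid.mem_powers_iff _ _).mp (mem_powers_iff_mem_zpowers.mpr ha')
      rw [← pow_mod_orderOf r n, hr4] at ha2 ⊢
      have : n % 4 < 4 := Nat.mod_lt _ (by norm_num)
      interval_cases hn : n % 4
      · rw [pow_zero, orderOf_one] at ha2; omega
      · rw [pow_one, hr4] at ha2; omega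
      · rfl
      · rw [orderOf_pow' r (by norm_num), hr4] at ha2; norm_num at ha2
    have huniq : ∀ P : Sylow 2 G, ∀ a ∈ (P : Subgroup G), ∀ b ∈ (P : Subgroup G),
        orderOf a = 2 → orderOf b = 2 → a = b := by
      intro P a ha b hb ha2 hb2
      obtain ⟨g, hg⟩ := MulAction.exists_smul_eq G P T
      have hmem : ∀ x ∈ (P : Subgroup G), g * x * g⁻¹ ∈ (T : Subgroup G) := fun x hx => by
        rw [← hg, Sylow.coe_subgroup_smul]
        exact ⟨x, hx, rfl⟩
      have e1 := hT _ (hmem a ha) (by rw [← MulAut.conj_apply, MulEquiv.orderOf_eq, ha2])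
      have e2 := hT _ (hmem b hb) (by rw [← MulAut.conj_apply, MulEquiv.orderOf_eq, hb2])
      exact mul_left_cancel (mul_right_cancel (e1.trans e2.symm))
    have hcent : ∀ P : Sylow 2 G, ∀ a ∈ (P : Subgroup G), orderOf a = 2 →
        centralizer ({a} : Set G) = (P : Subgroup G) := by
      intro P a ha ha2
      refine (centralizer_central h P ha (fun e => by rw [e, orderOf_one] at ha2; omega) fun t ht => ?_).2
      have := huniq P (t * a * t⁻¹) (mul_mem (mul_mem ht ha) (inv_mem ht)) a ha
        (by rw [← MulAut.conj_apply, MulEquiv.orderOf_eq, ha2]) ha2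
      calc t * a = t * a * t⁻¹ * t := by group
        _ = a * t := by rw [this]
    let inv₂ : G → G := fun g => if orderOf g = 4 then g ^ 2 else g
    have hinv : ∀ P : Sylow 2 G, ∀ g ∈ (P : Subgroup G), g ≠ 1 →
        (orderOf g = 2 ∨ orderOf g = 4) ∧ inv₂ g ∈ (P : Subgroup G) ∧ orderOf (inv₂ g) = 2 := by
      intro P g hg hg1
      have h1 := Subgroup.orderOf_dvd_natCard _ hg
      rw [card_two h] at h1
      rcases orderOf_cases h g with e | e | e | e | e
      · exact absurd (orderOf_eq_one_iff.mp e) hg1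
      · exact ⟨Or.inl e, by simp [inv₂, e, hg], by simp [inv₂, e]⟩
      · rw [e] at h1; omega
      · refine ⟨Or.inr e, by simp [inv₂, e, pow_mem hg], ?_⟩
        simp only [inv₂, e, if_true]
        rw [orderOf_pow' g (by norm_num), e]
        norm_num
      · rw [e] at h1; omega
    let F : (Σ P : Sylow 2 G, {w : ↥(P : Subgroup G) // w ≠ 1}) → {g : G // orderOf g = 2 ∨ orderOf g = 4} :=
      fun x => ⟨(x.2.1 : G), (hinv x.1 _ x.2.1.2 fun e => x.2.2 (Subtype.ext e)).1⟩
    have hF : Function.Injective F := by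
      rintro ⟨P, w, hw⟩ ⟨Q, v, hv⟩ e
      have e' : (w : G) = v := congrArg Subtype.val e
      have h1 := hinv P _ w.2 fun e => hw (Subtype.ext e)
      have h2 := hinv Q _ v.2 fun e => hv (Subtype.ext e)
      have hPQ : P = Q := Sylow.ext (by
        rw [← hcent P _ h1.2.1 h1.2.2, ← hcent Q _ h2.2.1 h2.2.2, e'])
      subst hPQ
      obtain rfl : w = v := Subtype.ext e'
      rfl
    have hc := Nat.card_le_card_of_injective F hF
    letI := Fintype.ofFinite G
    rw [Nat.card_sigma, Finset.sum_congr rfl (g := fun _ => 7) fun P _ => by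
      rw [Nat.card_eq_fintype_card, Fintype.card_subtype_compl, Fintype.card_subtype_eq,
        ← Nat.card_eq_fintype_card, card_two h],
      Finset.sum_const, Finset.card_univ, smul_eq_mul, ← Nat.card_eq_fintype_card, n_two h] at hc
    have hor : Nat.card {g : G // orderOf g = 2 ∨ orderOf g = 4} ≤ 63 := by
      rw [← count_two_four h, Nat.card_eq_fintype_card, Nat.card_eq_fintype_card, Nat.card_eq_fintype_card,
        Fintype.card_subtype, Fintype.card_subtype, Fintype.card_subtype, Finset.filter_or]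
      exact Finset.card_union_le _ _
    omega
  have hs1 : s * s = 1 := by rw [← sq, ← hs]; exact pow_orderOf_eq_one s
  have hsi : s⁻¹ = s := inv_eq_of_mul_eq_one_right hs1
  have hconj : s * r * s⁻¹ = r⁻¹ := by
    have hmem : s * r * s⁻¹ ∈ zpowers r :=
      (inferInstance : R.Normal).conj_mem ⟨r, hrT⟩ (mem_zpowers r) ⟨s, hsT⟩
    obtain ⟨n, hn⟩ := (Submonoid.mem_powers_iff _ _).mp (mem_powers_iff_mem_zpowers.mpr hmem)
    have ho : orderOf (s * r * s⁻¹) = 4 := by rw [← MulAut.conj_apply, MulEquiv.orderOf_eq, hr4]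
    rw [← hn, ← pow_mod_orderOf r n, hr4] at ho
    rw [← hn, ← pow_mod_orderOf r n, hr4]
    have : n % 4 < 4 := Nat.mod_lt _ (by norm_num)
    interval_cases hm : n % 4
    · rw [pow_zero, orderOf_one] at ho; omega
    · exfalso
      have hcomm : Commute s r := by
        show s * r = r * s
        rw [← pow_mod_orderOf r n, hr4, hm, pow_one] at hn
        calc s * r = s * r * s⁻¹ * s := by group
          _ = r * s := by rw [← hn]
      obtain ⟨a, ha, b, hb, hab⟩ := not_abelian_two h T
      have hgen : ∀ g ∈ (T : Subgroup G), ∃ x ∈ zpowers r, g = x ∨ g = s * x := by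
        intro g hg
        by_cases hgr : g ∈ zpowers r
        · exact ⟨g, hgr, Or.inl rfl⟩
        · refine ⟨s⁻¹ * g, ?_, Or.inr (by group)⟩
          exact (Subgroup.mul_mem_iff_of_index_two hidx (a := (⟨s, hsT⟩ : (T : Subgroup G))⁻¹) (b := ⟨g, hg⟩)).mpr
            (iff_of_false (fun hh => hsr (inv_mem_iff.mp hh)) hgr)
      obtain ⟨x, hx, hax⟩ := hgen a ha
      obtain ⟨y, hy, hby⟩ := hgen b hb
      obtain ⟨i, rfl⟩ := mem_zpowers_iff.mp hx
      obtain ⟨j, rfl⟩ := mem_zpowers_iff.mp hy
      have c1 : Commute (r ^ i) (r ^ j) := Commute.zpow_zpow_self r i j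
      have c2 : Commute s (r ^ j) := hcomm.zpow_right j
      have c3 : Commute s (r ^ i) := hcomm.zpow_right i
      rcases hax with rfl | rfl <;> rcases hby with rfl | rfl
      · exact hab c1.eq
      · exact hab ((c3.symm).mul_right c1).eq
      · exact hab (c2.mul_left c1).eq
      · exact hab (((Commute.refl s).mul_right c2).mul_left ((c3.symm).mul_right c1)).eq
    · rw [orderOf_pow' r (by norm_num), hr4] at ho; norm_num at ho
    · exact eq_inv_of_mul_eq_one_left (by rw [← pow_succ]; exact (congrArg (r ^ ·) hr4.symm).trans (pow_orderOf_eq_one r))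
  obtain ⟨e⟩ := Cfsg.Lib.TwoFus.nonempty_dihedral (m := 4) hr4 hs1 hconj hsr
  have hcl : closure ({r, s} : Set G) = (T : Subgroup G) := by
    refine Subgroup.eq_of_le_of_card_ge ((closure_le _).mpr ?_) (le_of_eq ?_)
    · rintro x (rfl | rfl)
      · exact hrT
      · exact hsT
    · rw [card_two h, Nat.card_congr e.toEquiv, DihedralGroup.nat_card]
  exact ⟨(MulEquiv.subgroupCongr hcl).symm.trans e⟩

/-- The central involution of a Sylow 2-subgroup has exactly two square roots, conjugate, and every element of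
order four in the subgroup squares to it. -/
theorem roots [Fact (Nat.Prime 2)] (T : Sylow 2 G) {z : G} (hz : z ∈ (T : Subgroup G)) (hz1 : z ≠ 1)
    (hzc : ∀ t ∈ (T : Subgroup G), t * z = z * t) :
    Nat.card {g : G // g * g = z} = 2 ∧
    (∀ g g' : G, g * g = z → g' * g' = z → IsConj g g') ∧
    (∀ g ∈ (T : Subgroup G), g * g ≠ 1 → g * g = z) := by
  obtain ⟨e⟩ := nonempty_dihedral h T
  obtain ⟨hz2, hzC⟩ := centralizer_central h T hz hz1 hzc
  have hin : ∀ g : G, g * g = z → g ∈ (T : Subgroup G) := fun g hg => by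
    rw [← hzC, mem_centralizer_singleton_iff, ← hg, mul_assoc]
  obtain ⟨hcard, hconj, hsq⟩ := d4_roots (e ⟨z, hz⟩)
    (fun hh => hz1 (congrArg Subtype.val ((map_eq_one_iff e e.injective).mp hh)))
    (fun x => by
      obtain ⟨y, rfl⟩ := e.surjective x
      rw [← map_mul, ← map_mul]
      exact congrArg e (Subtype.ext (hzc y y.2)))
  refine ⟨?_, fun g g' hg hg' => ?_, fun g hg hg2 => ?_⟩
  · rw [← hcard, ← Fintype.card_subtype, ← Nat.card_eq_fintype_card]
    exact Nat.card_congr
      { toFun := fun g => ⟨e ⟨g.1, hin _ g.2⟩, by rw [← map_mul]; exact congrArg e (Subtype.ext g.2)⟩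
        invFun := fun x => ⟨(e.symm x.1 : G), by
          rw [← Subgroup.coe_mul, ← map_mul, x.2, e.symm_apply_apply]⟩
        left_inv := fun g => Subtype.ext (by simp)
        right_inv := fun x => Subtype.ext (by simp) }
  · obtain ⟨x, hx⟩ := hconj (e ⟨g, hin g hg⟩) (e ⟨g', hin g' hg'⟩)
      (by rw [← map_mul]; exact congrArg e (Subtype.ext hg))
      (by rw [← map_mul]; exact congrArg e (Subtype.ext hg'))
    obtain ⟨y, rfl⟩ := e.surjective x
    rw [← map_inv, ← map_mul, ← map_mul] at hx
    exact isConj_iff.mpr ⟨y, congrArg Subtype.val (e.injective hx)⟩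
  · have := hsq (e ⟨g, hg⟩) (fun hh => hg2 (by
      rw [← map_mul] at hh
      exact congrArg Subtype.val ((map_eq_one_iff e e.injective).mp hh)))
    rw [← map_mul] at this
    exact congrArg Subtype.val (e.injective this)

/-- A central involution of some Sylow 2-subgroup. -/
theorem class_card [Fact (Nat.Prime 2)] (T : Sylow 2 G) {z : G} (hz : z ∈ (T : Subgroup G)) (hz1 : z ≠ 1)
    (hzc : ∀ t ∈ (T : Subgroup G), t * z = z * t) : Nat.card {g : G // IsConj z g} = 21 := by
  rw [Cfsg.Lib.Characters.card_conj_eq_index, (centralizer_central h T hz hz1 hzc).2]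
  have h1 := (T : Subgroup G).card_mul_index
  rw [card_two h, h] at h1
  omega

theorem sq_conj [Fact (Nat.Prime 2)] (T : Sylow 2 G) {z : G} (hz : z ∈ (T : Subgroup G)) (hz1 : z ≠ 1)
    (hzc : ∀ t ∈ (T : Subgroup G), t * z = z * t) {g : G} (hg : orderOf g = 4) : IsConj z (g * g) := by
  obtain ⟨P, hP⟩ := (IsPGroup.of_card (n := 2) (by rw [Nat.card_zpowers, hg]; norm_num) :
    IsPGroup 2 (zpowers g)).exists_le_sylow
  obtain ⟨c, hc⟩ := MulAction.exists_smul_eq G P T
  have hmem : c * g * c⁻¹ ∈ (T : Subgroup G) := by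
    rw [← hc, Sylow.coe_subgroup_smul]
    exact ⟨g, hP (mem_zpowers g), rfl⟩
  have h1 := (roots h T hz hz1 hzc).2.2 _ hmem (fun e => by
    have e' : g * g = 1 := by
      rw [show (c * g * c⁻¹) * (c * g * c⁻¹) = c * (g * g) * c⁻¹ by group] at e
      exact conj_eq_one_iff.mp e
    have := orderOf_dvd_of_pow_eq_one (n := 2) (by rw [sq]; exact e' : g ^ 2 = 1)
    rw [hg] at this
    omega)
  exact (isConj_iff.mpr ⟨c, by rw [← h1]; group⟩ : IsConj (g * g) z).symm

theorem count_four : Nat.card {g : G // orderOf g = 4} = 42 := by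
  haveI : Fact (Nat.Prime 2) := ⟨Nat.prime_two⟩
  letI := Fintype.ofFinite G
  obtain ⟨T⟩ : Nonempty (Sylow 2 G) := inferInstance
  obtain ⟨z, hz, hz1, hzc⟩ := exists_central h T
  have hz2 := (centralizer_central h T hz hz1 hzc).1
  have hroot : ∀ z' : {g : G // IsConj z g}, Nat.card {g : G // g * g = (z' : G)} = 2 := by
    rintro ⟨z', hz'⟩
    obtain ⟨c, hc⟩ := isConj_iff.mp hz'
    rw [← (roots h T hz hz1 hzc).1]
    exact Nat.card_congr ((MulAut.conj c⁻¹).toEquiv.subtypeEquiv fun g => by
      simp only [MulEquiv.toEquiv_eq_coe, EquivLike.coe_coe, MulAut.conj_apply, inv_inv]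
      constructor
      · intro hg
        calc (c⁻¹ * g * c) * (c⁻¹ * g * c) = c⁻¹ * (g * g) * c := by group
          _ = z := by rw [hg]; show c⁻¹ * z' * c = z; rw [← hc]; group
      · intro hg
        show g * g = z'
        rw [← hc, ← hg]; group)
  have e : {g : G // orderOf g = 4} ≃ Σ z' : {g : G // IsConj z g}, {g : G // g * g = (z' : G)} :=
    { toFun := fun g => ⟨⟨g.1 * g.1, sq_conj h T hz hz1 hzc g.2⟩, g.1, rfl⟩
      invFun := fun x => ⟨x.2.1, by
        have h1 : orderOf (x.2.1 * x.2.1) = 2 := by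
          rw [x.2.2]
          obtain ⟨c, hc⟩ := isConj_iff.mp x.1.2
          rw [← hc, ← MulAut.conj_apply, MulEquiv.orderOf_eq, hz2]
        rw [← sq, orderOf_pow' _ (by norm_num)] at h1
        rcases orderOf_cases h x.2.1 with e | e | e | e | e <;> rw [e] at h1 <;> norm_num at h1
        exact e⟩
      left_inv := fun g => rfl
      right_inv := by
        rintro ⟨⟨z', hz'⟩, g, hg⟩
        obtain rfl : g * g = z' := hg
        rfl }
  rw [Nat.card_congr e, Nat.card_sigma, Finset.sum_congr rfl fun z' _ => hroot z', Finset.sum_const,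
    Finset.card_univ, ← Nat.card_eq_fintype_card, class_card h T hz hz1 hzc, smul_eq_mul]

theorem count_two : Nat.card {g : G // orderOf g = 2} = 21 := by
  have h1 := count_two_four h
  rw [count_four h] at h1
  omega

theorem conj_two {s t : G} (hs : orderOf s = 2) (ht : orderOf t = 2) : IsConj s t := by
  haveI : Fact (Nat.Prime 2) := ⟨Nat.prime_two⟩
  letI := Fintype.ofFinite G
  obtain ⟨T⟩ : Nonempty (Sylow 2 G) := inferInstance
  obtain ⟨z, hz, hz1, hzc⟩ := exists_central h T
  have hz2 := (centralizer_central h T hz hz1 hzc).1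
  let F : {g : G // IsConj z g} → {g : G // orderOf g = 2} := fun g => ⟨g.1, by
    obtain ⟨c, hc⟩ := isConj_iff.mp g.2
    rw [← hc, ← MulAut.conj_apply, MulEquiv.orderOf_eq, hz2]⟩
  have hb : Function.Bijective F := (Nat.bijective_iff_injective_and_card F).mpr
    ⟨fun a b e => Subtype.ext (congrArg (fun x => x.1) e), by rw [class_card h T hz hz1 hzc, count_two h]⟩
  have hall : ∀ g : G, orderOf g = 2 → IsConj z g := fun g hg => by
    obtain ⟨a, ha⟩ := hb.2 ⟨g, hg⟩
    have : a.1 = g := congrArg Subtype.val ha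
    exact this ▸ a.2
  exact (hall s hs).symm.trans (hall t ht)

theorem conj_four {s t : G} (hs : orderOf s = 4) (ht : orderOf t = 4) : IsConj s t := by
  haveI : Fact (Nat.Prime 2) := ⟨Nat.prime_two⟩
  obtain ⟨T⟩ : Nonempty (Sylow 2 G) := inferInstance
  obtain ⟨z, hz, hz1, hzc⟩ := exists_central h T
  have h2 : ∀ g : G, orderOf g = 4 → ∃ g', IsConj g g' ∧ g' * g' = z := fun g hg => by
    obtain ⟨c, hc⟩ := isConj_iff.mp (sq_conj h T hz hz1 hzc hg).symm
    exact ⟨c * g * c⁻¹, isConj_iff.mpr ⟨c, rfl⟩, by rw [← hc]; group⟩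
  obtain ⟨s', hs', hs2⟩ := h2 s hs
  obtain ⟨t', ht', ht2⟩ := h2 t ht
  exact hs'.trans (((roots h T hz hz1 hzc).2.1 s' t' hs2 ht2).trans ht'.symm)

theorem conj_three {s t : G} (hs : orderOf s = 3) (ht : orderOf t = 3) : IsConj s t := by
  haveI : Fact (Nat.Prime 3) := ⟨by norm_num⟩
  letI := Fintype.ofFinite G
  obtain ⟨P, hP⟩ := exists_sylow_zpowers (card_three h) hs
  obtain ⟨R, hR⟩ := exists_sylow_zpowers (card_three h) ht
  obtain ⟨c, hc⟩ := MulAction.exists_smul_eq G P R
  have hmem : c * s * c⁻¹ ∈ zpowers t := by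
    rw [← hR, ← hc, Sylow.coe_subgroup_smul]
    exact ⟨s, by rw [hP]; exact mem_zpowers s, rfl⟩
  have hso : orderOf (c * s * c⁻¹) = 3 := by rw [← MulAut.conj_apply, MulEquiv.orderOf_eq, hs]
  obtain ⟨n, hn⟩ := (Submonoid.mem_powers_iff _ _).mp (mem_powers_iff_mem_zpowers.mpr hmem)
  rw [← pow_mod_orderOf t n, ht] at hn
  have : n % 3 < 3 := Nat.mod_lt _ (by norm_num)
  refine (isConj_iff.mpr ⟨c, rfl⟩ : IsConj s (c * s * c⁻¹)).trans ?_
  interval_cases hm : n % 3
  · rw [← hn, pow_zero, orderOf_one] at hso; omega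
  · rw [← hn, pow_one]
  · rw [← hn]
    -- an element of the normaliser inverts `t`
    have hle : ¬ normalizer ((R : Subgroup G) : Set G) ≤ centralizer ({t} : Set G) := by
      intro hle
      have h1 := Subgroup.card_le_of_le hle
      rw [centralizer_three h ht, Nat.card_zpowers, ht, normalizer_three h R] at h1
      omega
    obtain ⟨g, hgN, hgC⟩ := SetLike.not_le_iff_exists.mp hle
    have hg : g * t * g⁻¹ ∈ zpowers t := by
      rw [← hR]
      exact (Subgroup.mem_normalizer_iff.mp hgN t).mp (by rw [hR]; exact mem_zpowers t)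
    have hgo : orderOf (g * t * g⁻¹) = 3 := by rw [← MulAut.conj_apply, MulEquiv.orderOf_eq, ht]
    obtain ⟨k, hk⟩ := (Submonoid.mem_powers_iff _ _).mp (mem_powers_iff_mem_zpowers.mpr hg)
    rw [← pow_mod_orderOf t k, ht] at hk
    have : k % 3 < 3 := Nat.mod_lt _ (by norm_num)
    interval_cases hkm : k % 3
    · rw [← hk, pow_zero, orderOf_one] at hgo; omega
    · refine absurd (mem_centralizer_singleton_iff.mpr ?_) hgC
      calc g * t = g * t * g⁻¹ * g := by group
        _ = t * g := by rw [← hk, pow_one]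
    · exact (isConj_iff.mpr ⟨g, hk.symm⟩ : IsConj t (t ^ 2)).symm

theorem class_seven {x : G} (hx : orderOf x = 7) :
    Nat.card {g : G // IsConj x g} = 24 ∧ ¬ IsConj x x⁻¹ := by
  haveI : Fact (Nat.Prime 7) := ⟨by norm_num⟩
  letI := Fintype.ofFinite G
  refine ⟨?_, fun hc => ?_⟩
  · rw [Cfsg.Lib.Characters.card_conj_eq_index, centralizer_seven h hx]
    have h1 := (zpowers x).card_mul_index
    rw [Nat.card_zpowers, hx, h] at h1
    omega
  · obtain ⟨g, hg⟩ := isConj_iff.mp hc
    obtain ⟨P, hP⟩ := exists_sylow_zpowers (card_seven h) hx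
    have hgN : g ∈ normalizer ((P : Subgroup G) : Set G) := by
      rw [Subgroup.mem_normalizer_iff]
      have hmap : (P : Subgroup G).map (MulAut.conj g).toMonoidHom = (P : Subgroup G) := by
        rw [hP, MonoidHom.map_zpowers]
        show zpowers (g * x * g⁻¹) = _
        rw [hg, zpowers_inv]
      intro w
      conv_rhs => rw [← hmap]
      exact (Subgroup.mem_map_iff_mem (f := (MulAut.conj g).toMonoidHom) (MulAut.conj g).injective).symm
    have hodd : ¬ 2 ∣ orderOf g := fun hd => by
      have := hd.trans (Subgroup.orderOf_dvd_natCard _ hgN)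
      rw [normalizer_seven h P] at this
      omega
    have h2 : g ^ 2 ∈ centralizer ({x} : Set G) := mem_centralizer_singleton_iff.mpr (by
      have hg2 : g * x⁻¹ * g⁻¹ = x := by
        rw [show g * x⁻¹ * g⁻¹ = (g * x * g⁻¹)⁻¹ by group, hg, inv_inv]
      calc g ^ 2 * x = g * (g * x * g⁻¹) * g⁻¹ * g ^ 2 := by rw [sq]; group
        _ = x * g ^ 2 := by rw [hg, hg2])
    obtain ⟨n, hn⟩ := exists_pow_eq_self_of_coprime (x := g) (n := 2)
      ((Nat.Prime.coprime_iff_not_dvd Nat.prime_two).mpr hodd)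
    have hgx := mem_centralizer_singleton_iff.mp (hn ▸ pow_mem h2 n : g ∈ centralizer ({x} : Set G))
    have h3 : x * x = 1 := by
      have : g * x * g⁻¹ = x := by rw [hgx, mul_inv_cancel_right]
      rw [hg] at this
      nth_rw 1 [← this]
      exact inv_mul_cancel x
    have := orderOf_dvd_of_pow_eq_one (n := 2) (by rw [sq]; exact h3 : x ^ 2 = 1)
    rw [hx] at this
    omega

end Cfsg.Lib.SimpleOrder.O168
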