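import Cfsg.Agent.Lib.SimpleOrder.DefectOneSetup
import Cfsg.Agent.Lib.SimpleOrder.Order168

/-!
# Simple groups of order properly dividing 175560
-/

set_option autoImplicit false
set_option linter.unusedSectionVars false
set_option linter.style.longLine false
set_option linter.style.haveILetI false

namespace Cfsg.Lib.SimpleOrder.DefectOne
open Cfsg.Lib.Characters Cfsg.Lib.Blocks Cfsg.Lib.FreeNormalizer Finset
open scoped Classical
universe u
variable {G : Type u} [Group G] [Finite G] [IsSimpleGroup G]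

theorem restrictions_centralizer (p : ℕ) [hp : Fact p.Prime] (r : ℕ) (hr : Nat.card G = p * r) (hpr : ¬ p ∣ r)
    (hr1 : 1 < r) :
    ∃ n m c : ℕ, (∃ P : Sylow p G, Nat.card (Subgroup.centralizer ((P : Subgroup G) : Set G)) = p * c) ∧ n = Nat.card (Sylow p G) ∧ n % p = 1 ∧ n ≠ 1 ∧ m ∣ p - 1 ∧ m ≠ 1 ∧ c * m * n = r ∧
      (m = 2 → 5 ≤ p → ∃ f f₀, TwoPat p (Nat.card G) f f₀ ∧ (f < 2 * p → c = 1) ∧ (f₀ < 2 * p → 2 ≤ f₀)) ∧
      (m = 2 → 5 ≤ p → c = 1 → ∃ f f₀ k, TwoPat p (Nat.card G) f f₀ ∧ k ∣ Nat.card G ∧ ¬ 2 ∣ k ∧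
        p * Nat.card G * f * f₀ ≤ k ^ 2 * (4 * f ^ 2)) ∧
      (m = 3 → 7 ≤ p → ∃ f g f₀, ThreePat p (Nat.card G) f g f₀ ∧ (f < 2 * p → c = 1) ∧ (g < 2 * p → c = 1)) ∧
      (p = 5 → m = 4 → ∃ f, 2 ≤ f ∧ f % 2 = 1 ∧ (f % 5 = 1 ∨ f % 5 = 4) ∧ f ∣ Nat.card G ∧
        1 + f ^ 2 ≤ Nat.card G ∧ (f < 10 → c = 1)) := by
  classical
  letI := Fintype.ofFinite G
  have hG : ¬ IsMulCommutative G := not_comm_of_not_prime (by
    rw [hr]; exact Nat.not_prime_mul hp.out.ne_one (by omega))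
  obtain ⟨P⟩ : Nonempty (Sylow p G) := inferInstance
  have hP : Nat.card (P : Subgroup G) = p := by
    rw [P.card_eq_multiplicity, hr, Nat.factorization_mul hp.out.ne_zero (by omega), Finsupp.coe_add,
      Pi.add_apply, hp.out.factorization_self, Nat.factorization_eq_zero_of_not_dvd hpr, pow_one]
  obtain ⟨M, hM⟩ := exists_isPModular p
  haveI := hM.2.1.isPrime
  obtain ⟨c, hc⟩ := dvd_card_centralizer hP
  have hcard := card_eq hP
  rw [hc, hr, mul_assoc p, mul_assoc p] at hcard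
  have hn1 : Nat.card (Sylow p G) ≠ 1 := card_sylow_ne_one hG p ⟨r, hr⟩
  have hnmod : Nat.card (Sylow p G) % p = 1 := by
    have := card_sylow_modEq_one p G
    rwa [Nat.ModEq, Nat.one_mod_eq_one.mpr hp.out.ne_one] at this
  have hself : ∀ {χ : IrrCharacter G} {f : ℕ}, χ ∈ B0 (G := G) M → χ ≠ trivChar G → (χ : G → ℂ) 1 = f →
      f < 2 * p → c = 1 := by
    intro χ f hB hne hf hlt
    have h := centralizer_eq_of_small hG hP hM hB hne hf hlt
    rw [h, hP] at hc
    exact Nat.eq_of_mul_eq_mul_left hp.out.pos (hc.symm.trans (mul_one p).symm)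
  have hp2 := hp.out.two_le
  refine ⟨_, _, c, ⟨P, hc⟩, rfl, hnmod, hn1, card_aut_dvd hP, card_aut_ne_one hG hP,
    Nat.eq_of_mul_eq_mul_left hp.out.pos hcard, ?_, ?_, ?_, ?_⟩
  · intro hm hp5
    obtain ⟨χ, hB, hne, f, f₀, a, s, hf, ha, hs, hrel, h1, h2, hf2, hf02, hd, hd0, hsq⟩ := data_two hG hP hM hm hp5
    refine ⟨f, f₀, ⟨?_, hf2, hf02, hd, hd0, hsq⟩, hself hB hne hf, fun _ => hf02⟩
    rcases ha with rfl | rfl <;> rcases hs with rfl | rfl
    · exact Or.inl ⟨mod_of_dvd_sub hp2 (by omega) (by simp) h1, by omega⟩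
    · omega
    · omega
    · refine Or.inr ⟨mod_of_dvd_sub hp2 (by omega) ?_ h1, by omega⟩
      rw [Nat.cast_sub hp.out.one_le]
      exact ⟨-1, by push_cast; ring⟩
  · intro hm hp5 hc1
    have hC : Subgroup.centralizer ((P : Subgroup G) : Set G) = (P : Subgroup G) :=
      (Subgroup.eq_of_le_of_card_ge (le_centralizer hP) (by rw [hc, hc1, mul_one, hP])).symm
    obtain ⟨f, f₀, k, a, s, ha, hs, hrel, h1, h2, hf2, hf02, hd, hd0, hsq, hk, hk2, hle⟩ :=
      two_involutions hG hP hC hM hm hp5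
    refine ⟨f, f₀, k, ⟨?_, hf2, hf02, hd, hd0, hsq⟩, hk, hk2, hle⟩
    rcases ha with rfl | rfl <;> rcases hs with rfl | rfl
    · exact Or.inl ⟨mod_of_dvd_sub hp2 (by omega) (by simp) h1, by omega⟩
    · omega
    · omega
    · refine Or.inr ⟨mod_of_dvd_sub hp2 (by omega) ?_ h1, by omega⟩
      rw [Nat.cast_sub hp.out.one_le]
      exact ⟨-1, by push_cast; ring⟩
  · intro hm hp7
    obtain ⟨χ, hB, hne, ψ, hB', hne', f, g, f₀, a, b, s, hf, hg, ha, hb, hs, hrel, h1, h2, h3, hf2, hg2, hf02, hd, hdg, hd0, hsq⟩ :=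
      data_three hG hP hM hm hp7
    have hmod : ∀ {e : ℤ} {x : ℕ}, (e = 1 ∨ e = -1) → (p : ℤ) ∣ (x : ℤ) - e → x % p = 1 ∨ x % p = p - 1 := by
      intro e x he hx
      rcases he with rfl | rfl
      · exact Or.inl (mod_of_dvd_sub hp2 (by omega) (by simp) hx)
      · refine Or.inr (mod_of_dvd_sub hp2 (by omega) ?_ hx)
        rw [Nat.cast_sub hp.out.one_le]
        exact ⟨-1, by push_cast; ring⟩
    refine ⟨f, g, f₀, ⟨hmod ha h1, hmod hb h2, ?_, ?_, hf2, hg2, hd, hdg, hd0, hsq⟩, hself hB hne hf, hself hB' hne' hg⟩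
    · rcases ha with rfl | rfl <;> rcases hb with rfl | rfl <;> rcases hs with rfl | rfl <;> omega
    · rcases hs with rfl | rfl
      · exact Or.inl (mod_of_dvd_sub hp2 (by omega) (by simp) h3)
      · refine Or.inr (mod_of_dvd_sub hp2 (by omega) ?_ h3)
        rw [Nat.cast_sub (by omega : 3 ≤ p)]
        exact ⟨-1, by push_cast; ring⟩
  · intro hp5 hm
    subst hp5
    obtain ⟨χ, hB, hne, f, hf, hf2, hodd, hmod, hd, hsq⟩ := data_four hG hP hM hm
    exact ⟨f, hf2, hodd, hmod, hd, hsq, hself hB hne hf⟩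

end Cfsg.Lib.SimpleOrder.DefectOne

namespace Cfsg.Lib.SimpleOrder.O175560

open Cfsg.Lib.SimpleOrder Cfsg.Lib.SimpleOrder.DefectOne

/-- no admissible degree pattern -/
def NoTwo (p N c : ℕ) : Prop :=
  ∀ f < 300, (f % p = 1 ∨ f % p = p - 1) → f ∣ N → (f < 2 * p → c = 1) →
    ¬ TwoPat p N f (f + 1) ∧ ¬ TwoPat p N f (f - 1)

def NoThree (p N c : ℕ) : Prop :=
  ∀ f < 300, (f % p = 1 ∨ f % p = p - 1) → f ∣ N → (f < 2 * p → c = 1) →
    ∀ g < 300, (g % p = 1 ∨ g % p = p - 1) → g ∣ N → (g < 2 * p → c = 1) →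
      ∀ f₀ ∈ [1 + f + g, 1 + f - g, g - 1 - f, 1 + g - f, f - 1 - g, f + g - 1], ¬ ThreePat p N f g f₀

theorem no_two {p N c f f₀ : ℕ} (hN : N < 90000) (hk : NoTwo p N c) (h : TwoPat p N f f₀)
    (hc : f < 2 * p → c = 1) : False := by
  obtain ⟨hrel, hf, hf₀, hd, hd₀, hs⟩ := h
  have hlt : f < 300 := by nlinarith
  rcases hrel with ⟨h1, rfl⟩ | ⟨h1, h2⟩
  · exact (hk f hlt (Or.inl h1) hd hc).1 ⟨Or.inl ⟨h1, rfl⟩, hf, hf₀, hd, hd₀, hs⟩
  · obtain rfl : f₀ = f - 1 := by omega
    exact (hk f hlt (Or.inr h1) hd hc).2 ⟨Or.inr ⟨h1, h2⟩, hf, hf₀, hd, hd₀, hs⟩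

theorem no_three {p N c f g f₀ : ℕ} (hN : N < 90000) (hk : NoThree p N c) (h : ThreePat p N f g f₀)
    (hc : f < 2 * p → c = 1) (hc' : g < 2 * p → c = 1) : False := by
  obtain ⟨h1, h2, hrel, h3, hf, hg, hd, hdg, hd₀, hs⟩ := h
  have hlt : f < 300 := by nlinarith
  have hlt' : g < 300 := by nlinarith
  refine hk f hlt h1 hd hc g hlt' h2 hdg hc' f₀ ?_ ⟨h1, h2, hrel, h3, hf, hg, hd, hdg, hd₀, hs⟩
  simp only [List.mem_cons, List.not_mem_nil, or_false]
  omega

variable {G : Type*} [Group G] [Finite G]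

theorem card_centralizer_eq {p : ℕ} [Fact p.Prime] (P P' : Sylow p G) :
    Nat.card (Subgroup.centralizer ((P : Subgroup G) : Set G)) =
      Nat.card (Subgroup.centralizer ((P' : Subgroup G) : Set G)) := by
  obtain ⟨g, rfl⟩ := MulAction.exists_smul_eq G P P'
  refine Nat.card_congr ⟨fun x => ⟨g * x * g⁻¹, ?_⟩, fun x => ⟨g⁻¹ * x * g, ?_⟩, fun x => ?_, fun x => ?_⟩
  · intro y hy
    rw [Sylow.coe_subgroup_smul] at hy
    obtain ⟨z, hz, rfl⟩ := hy
    have := x.2 z hz
    simp only [MulDistribMulAction.toMonoidEnd_apply, MulDistribMulAction.toMonoidHom_apply, MulAut.smul_def,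
      MulAut.conj_apply]
    calc g * z * g⁻¹ * (g * x * g⁻¹) = g * (z * x) * g⁻¹ := by group
      _ = g * (x * z) * g⁻¹ := by rw [this]
      _ = g * x * g⁻¹ * (g * z * g⁻¹) := by group
  · intro z hz
    have hy : g * z * g⁻¹ ∈ ((g • P : Sylow p G) : Subgroup G) := by
      rw [Sylow.coe_subgroup_smul]; exact ⟨z, hz, rfl⟩
    have := x.2 _ hy
    calc z * (g⁻¹ * x * g) = g⁻¹ * ((g * z * g⁻¹) * x) * g := by group
      _ = g⁻¹ * (x * (g * z * g⁻¹)) * g := by rw [this]
      _ = g⁻¹ * x * g * z := by group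
  · ext; simp [mul_assoc]
  · ext; simp [mul_assoc]

/-- centralizing is symmetric -/
theorem link {p q c d : ℕ} [Fact p.Prime] [Fact q.Prime] (hp : ∀ P : Sylow p G, Nat.card (P : Subgroup G) = p)
    (hq : ∀ Q : Sylow q G, Nat.card (Q : Subgroup G) = q) (hpq : p ≠ q)
    (hc : ∃ P : Sylow p G, Nat.card (Subgroup.centralizer ((P : Subgroup G) : Set G)) = p * c)
    (hd : ∃ Q : Sylow q G, Nat.card (Subgroup.centralizer ((Q : Subgroup G) : Set G)) = q * d)
    (h : q ∣ c) : p ∣ d := by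
  obtain ⟨P, hP⟩ := hc
  obtain ⟨Q, hQ⟩ := hd
  obtain ⟨y, hy⟩ := exists_prime_orderOf_dvd_card' (G := ↥(Subgroup.centralizer ((P : Subgroup G) : Set G))) q
    (hP ▸ dvd_mul_of_dvd_right h p)
  rw [← Subgroup.orderOf_coe] at hy
  obtain ⟨Q', hQ'⟩ := O168.exists_sylow_zpowers hq hy
  have hle : (P : Subgroup G) ≤ Subgroup.centralizer ((Q' : Subgroup G) : Set G) := by
    intro x hx z hz
    rw [hQ'] at hz
    obtain ⟨i, rfl⟩ := hz
    have h1 : Commute x (y : G) := y.2 x hx
    exact ((h1.zpow_right i).eq).symm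
  have hdvd := Subgroup.card_dvd_of_le hle
  rw [hp P, card_centralizer_eq Q' Q, hQ] at hdvd
  exact ((Nat.coprime_primes Fact.out Fact.out).2 hpq).dvd_of_dvd_mul_left hdvd

theorem sylow_card {p N r : ℕ} [hp : Fact p.Prime] (hN : Nat.card G = N) (h : N = p * r) (hr : ¬ p ∣ r)
    (P : Sylow p G) : Nat.card (P : Subgroup G) = p := by
  have hne : r ≠ 0 := fun e => hr (e ▸ dvd_zero p)
  rw [P.card_eq_multiplicity, hN, h, Nat.factorization_mul hp.out.ne_zero hne, Finsupp.coe_add, Pi.add_apply,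
    hp.out.factorization_self, Nat.factorization_eq_zero_of_not_dvd hr, pow_one]

/-- a small centralizer of a Sylow `19`-subgroup has a normal Sylow `5`-subgroup -/
theorem five_in_centralizer {c : ℕ} [Fact (Nat.Prime 19)] [IsSimpleGroup G] (hG : ¬ IsMulCommutative G)
    (hN : 19 ∣ Nat.card G) (hP5 : ∀ Q : Sylow 5 G, Nat.card (Q : Subgroup G) = 5)
    (h77 : Nat.card (Sylow 19 G) = 77)
    (hc : ∃ P : Sylow 19 G, Nat.card (Subgroup.centralizer ((P : Subgroup G) : Set G)) = 19 * c)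
    (hP19 : ∀ P : Sylow 19 G, Nat.card (P : Subgroup G) = 19) (h5 : c = 5 ∨ c = 10 ∨ c = 20) : False := by
  haveI : Fact (Nat.Prime 5) := ⟨by norm_num⟩
  obtain ⟨P, hP⟩ := hc
  obtain ⟨K, hK⟩ : ∃ K : Subgroup G, K = Subgroup.centralizer ((P : Subgroup G) : Set G) := ⟨_, rfl⟩
  rw [← hK] at hP
  obtain ⟨R⟩ : Nonempty (Sylow 5 K) := inferInstance
  have hRc : Nat.card (R : Subgroup K) = 5 := by
    rcases h5 with rfl | rfl | rfl
    · exact sylow_card hP (r := 19) (by norm_num) (by norm_num) R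
    · exact sylow_card hP (r := 38) (by norm_num) (by norm_num) R
    · exact sylow_card hP (r := 76) (by norm_num) (by norm_num) R
  have hPK : (P : Subgroup G) ≤ K := by
    rw [hK]
    letI := Fintype.ofFinite G
    intro x hx y hy
    have := DefectOne.comm_of_prime (hP19 P) ⟨y, hy⟩ ⟨x, hx⟩
    exact congrArg Subtype.val this
  have h19 : 19 ∣ Nat.card (Subgroup.normalizer ((R : Subgroup K) : Set K)) := by
    have hle : (P : Subgroup G).subgroupOf K ≤ Subgroup.normalizer ((R : Subgroup K) : Set K) := by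
      refine le_trans ?_ (Subgroup.center_le_normalizer _)
      intro x hx
      rw [Subgroup.mem_center_iff]
      intro z
      have hz : (z : G) ∈ Subgroup.centralizer ((P : Subgroup G) : Set G) := (SetLike.ext_iff.1 hK _).1 z.2
      exact Subtype.ext (hz x hx).symm
    have := Subgroup.card_dvd_of_le hle
    rwa [Nat.card_congr (Subgroup.subgroupOfEquivOfLe hPK).toEquiv, hP19 P] at this
  have hn : Nat.card (Sylow 5 K) = 1 := by
    have h1 : Nat.card (Sylow 5 K) = (Subgroup.normalizer ((R : Subgroup K) : Set K)).index := R.card_eq_index_normalizer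
    have h2 := (Subgroup.normalizer ((R : Subgroup K) : Set K)).card_mul_index
    rw [← h1, hP] at h2
    have h5' : 5 ∣ Nat.card (Subgroup.normalizer ((R : Subgroup K) : Set K)) := by
      have hd := Subgroup.card_dvd_of_le (Subgroup.le_normalizer (H := (R : Subgroup K)))
      rwa [hRc] at hd
    have h95 : 95 ∣ Nat.card (Subgroup.normalizer ((R : Subgroup K) : Set K)) :=
      Nat.Coprime.mul_dvd_of_dvd_of_dvd (by norm_num) h5' h19
    obtain ⟨e, he⟩ := h95
    rw [he] at h2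
    have h3 : Nat.card (Sylow 5 K) % 5 = 1 := card_sylow_modEq_one 5 K
    have h4 : e * Nat.card (Sylow 5 K) ∣ 4 := by
      rcases h5 with rfl | rfl | rfl
      · exact ⟨4, by nlinarith⟩
      · exact ⟨2, by nlinarith⟩
      · exact ⟨1, by nlinarith⟩
    have h6 := Nat.le_of_dvd (by norm_num) ((Nat.dvd_mul_left _ _).trans h4)
    omega
  obtain ⟨Q, hQdef⟩ : ∃ Q : Subgroup G, Q = (R : Subgroup K).map K.subtype := ⟨_, rfl⟩
  have hQc : Nat.card Q = 5 := by
    rw [hQdef, Subgroup.card_map_of_injective K.subtype_injective, hRc]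
  obtain ⟨S, hS⟩ := (IsPGroup.of_card (n := 1) (by rw [hQc, pow_one]) : IsPGroup 5 Q).exists_le_sylow
  have hQS : Q = (S : Subgroup G) := Subgroup.eq_of_le_of_card_ge hS (by rw [hQc, hP5 S])
  have huniq : ∀ x : K, orderOf x ∣ 5 → x ∈ (R : Subgroup K) := by
    intro x hx
    have hx' : IsPGroup 5 (Subgroup.zpowers x) := by
      rcases (Nat.dvd_prime (by norm_num)).1 hx with e | e
      · exact IsPGroup.of_card (n := 0) (by rw [Nat.card_zpowers, e, pow_zero])
      · exact IsPGroup.of_card (n := 1) (by rw [Nat.card_zpowers, e, pow_one])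
    obtain ⟨R', hR'⟩ := hx'.exists_le_sylow
    haveI := (Nat.card_eq_one_iff_unique.1 hn).1
    rw [Subsingleton.elim R R']
    exact hR' (Subgroup.mem_zpowers x)
  have hNN : Subgroup.normalizer ((P : Subgroup G) : Set G) ≤ Subgroup.normalizer ((S : Subgroup G) : Set G) := by
    intro g hg
    refine (Subgroup.mem_normalizer_iff_map_conj_eq).2 ?_
    refine Subgroup.eq_of_le_of_card_ge ?_ (by rw [Subgroup.card_map_of_injective (MulAut.conj g).injective])
    rw [← hQS]
    rintro _ ⟨z, hz, rfl⟩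
    rw [hQdef] at hz
    obtain ⟨w, hw, rfl⟩ := hz
    have hmem : g * (w : G) * g⁻¹ ∈ K := by
      refine (SetLike.ext_iff.1 hK _).2 ?_
      intro y hy
      have h1 : g⁻¹ * y * g ∈ (P : Subgroup G) := by
        have := (Subgroup.mem_normalizer_iff.1 (inv_mem hg) y).1 hy
        simpa using this
      have h2 : (w : G) ∈ Subgroup.centralizer ((P : Subgroup G) : Set G) := (SetLike.ext_iff.1 hK _).1 w.2
      have h3 := h2 _ h1
      calc y * (g * w * g⁻¹) = g * ((g⁻¹ * y * g) * w) * g⁻¹ := by group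
        _ = g * (w * (g⁻¹ * y * g)) * g⁻¹ := by rw [h3]
        _ = g * w * g⁻¹ * y := by group
    rw [hQdef]
    refine ⟨⟨g * w * g⁻¹, hmem⟩, huniq _ ?_, rfl⟩
    rw [← Subgroup.orderOf_coe]
    have e : g * (w : G) * g⁻¹ = MulAut.conj g (w : G) := rfl
    show orderOf (g * (w : G) * g⁻¹) ∣ 5
    rw [e, MulEquiv.orderOf_eq, Subgroup.orderOf_coe, ← Subgroup.orderOf_mk w hw]
    exact (orderOf_dvd_natCard _).trans (dvd_of_eq hRc)
  have hidx := Subgroup.index_dvd_of_le hNN
  have eP : Nat.card (Sylow 19 G) = (Subgroup.normalizer ((P : Subgroup G) : Set G)).index := P.card_eq_index_normalizer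
  have eS : Nat.card (Sylow 5 G) = (Subgroup.normalizer ((S : Subgroup G) : Set G)).index := S.card_eq_index_normalizer
  rw [← eP, h77, ← eS] at hidx
  have hmod : Nat.card (Sylow 5 G) % 5 = 1 := card_sylow_modEq_one 5 G
  have h5G : 5 ∣ Nat.card G := hP5 S ▸ Subgroup.card_subgroup_dvd_card _
  have hne := card_sylow_ne_one hG 5 h5G
  have h11 : Nat.card (Sylow 5 G) = 11 :=
    ((by decide +kernel : ∀ n ∈ Nat.divisors 77, n % 5 = 1 → n = 1 ∨ n = 11) _
      (Nat.mem_divisors.2 ⟨hidx, by norm_num⟩) hmod).resolve_left hne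
  have h := two_mul_card_dvd hG (Subgroup.normalizer ((S : Subgroup G) : Set G))
    (normalizer_ne_top S hne)
  rw [← eS, h11] at h
  exact absurd ((dvd_mul_of_dvd_right hN 2).trans h) (by decide)

theorem count_three {p q s : ℕ} [Fact p.Prime] [Fact q.Prime] [Fact s.Prime] (h1 : p ≠ q) (h2 : p ≠ s) (h3 : q ≠ s) :
    Nat.card {g : G // orderOf g = p} + Nat.card {g : G // orderOf g = q} + Nat.card {g : G // orderOf g = s}
      ≤ Nat.card G := by
  classical
  letI := Fintype.ofFinite G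
  simp only [Nat.card_eq_fintype_card, Fintype.card_subtype]
  rw [← Finset.card_union_of_disjoint, ← Finset.card_union_of_disjoint]
  · exact Finset.card_le_univ _
  · rw [Finset.disjoint_left]; intro g hg hg'
    simp only [Finset.mem_union, Finset.mem_filter, Finset.mem_univ, true_and] at hg hg'
    rcases hg with e | e <;> exact (by omega : False)
  · rw [Finset.disjoint_left]; intro g hg hg'
    simp only [Finset.mem_filter, Finset.mem_univ, true_and] at hg hg'
    omega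

theorem count_fifteen {a b : ℕ} [Fact (Nat.Prime 5)] [Fact (Nat.Prime 7)] [Fact (Nat.Prime 19)]
    (hG : Nat.card G = 87780) (h19 : Nat.card {g : G // orderOf g = 19} = a)
    (h7 : Nat.card {g : G // orderOf g = 7} = b)
    (hP5 : ∀ Q : Sylow 5 G, Nat.card (Q : Subgroup G) = 5)
    (hc : ∃ Q : Sylow 5 G, Nat.card (Subgroup.centralizer ((Q : Subgroup G) : Set G)) = 5 * 3) :
    a + b + 3 * Nat.card {g : G // orderOf g = 5} ≤ 87780 := by
  haveI : Fact (Nat.Prime 3) := ⟨by norm_num⟩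
  classical
  letI := Fintype.ofFinite G
  obtain ⟨Q, hQ⟩ := hc
  have hex : ∀ x : {g : G // orderOf g = 5}, ∃ y : G, orderOf y = 3 ∧ Commute (x : G) y := by
    intro x
    obtain ⟨Q', hQ'⟩ := O168.exists_sylow_zpowers hP5 x.2
    obtain ⟨y, hy⟩ := exists_prime_orderOf_dvd_card' (G := ↥(Subgroup.centralizer ((Q' : Subgroup G) : Set G))) 3
      (by rw [card_centralizer_eq Q' Q, hQ]; norm_num)
    exact ⟨y, by rw [Subgroup.orderOf_coe]; exact hy, y.2 x (hQ' ▸ Subgroup.mem_zpowers (x : G))⟩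
  choose y hy hcomm using hex
  let F : {g : G // orderOf g = 5} × Bool → {g : G // orderOf g = 15} := fun xb =>
    ⟨(xb.1 : G) * (if xb.2 then y xb.1 else (y xb.1)⁻¹), by
      have hc' : Commute (xb.1 : G) (if xb.2 then y xb.1 else (y xb.1)⁻¹) := by
        split
        exacts [hcomm _, (hcomm _).inv_right]
      have h3 : orderOf (if xb.2 then y xb.1 else (y xb.1)⁻¹) = 3 := by
        split
        exacts [hy _, by rw [orderOf_inv, hy]]
      rw [hc'.orderOf_mul_eq_mul_orderOf_of_coprime (by rw [xb.1.2, h3]; norm_num), xb.1.2, h3]⟩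
  have hF : Function.Injective F := by
    rintro ⟨x, i⟩ ⟨x', i'⟩ e
    have e' := congrArg (fun g : {g : G // orderOf g = 15} => (g : G)) e
    simp only [F] at e'
    have key : ∀ (u : {g : G // orderOf g = 5}) (w : G), orderOf w = 3 → Commute (u : G) w →
        ((u : G) * w) ^ 6 = u := by
      intro u w hw hu
      rw [hu.mul_pow, (orderOf_dvd_iff_pow_eq_one.1 (by rw [hw]; norm_num) : w ^ 6 = 1),
        mul_one, show (6 : ℕ) = 5 + 1 by norm_num, pow_succ, (orderOf_dvd_iff_pow_eq_one.1 (by rw [u.2]) : (u : G) ^ 5 = 1), one_mul]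
    have hw : ∀ (u : {g : G // orderOf g = 5}) (j : Bool), orderOf (if j then y u else (y u)⁻¹) = 3 ∧
        Commute (u : G) (if j then y u else (y u)⁻¹) := by
      intro u j; cases j
      · simp [orderOf_inv, hy, (hcomm u).inv_right]
      · simp [hy, hcomm u]
    have hx := key x _ (hw x i).1 (hw x i).2
    rw [e', key x' _ (hw x' i').1 (hw x' i').2] at hx
    obtain rfl : x = x' := Subtype.ext hx.symm
    have e2 := mul_left_cancel e'
    have hne : y x ≠ (y x)⁻¹ := by
      intro h0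
      have h2 : y x ^ 2 = 1 := by rw [pow_two]; nth_rewrite 2 [h0]; exact mul_inv_cancel _
      have := orderOf_dvd_of_pow_eq_one h2
      rw [hy] at this; omega
    cases i <;> cases i' <;> simp_all
  have h15 := Nat.card_le_card_of_injective F hF
  rw [Nat.card_prod, Nat.card_eq_fintype_card (α := Bool), Fintype.card_bool] at h15
  have hsum : Nat.card {g : G // orderOf g = 19} + Nat.card {g : G // orderOf g = 7} +
      Nat.card {g : G // orderOf g = 5} + Nat.card {g : G // orderOf g = 15} ≤ Nat.card G := by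
    simp only [Nat.card_eq_fintype_card, Fintype.card_subtype]
    rw [← Finset.card_union_of_disjoint, ← Finset.card_union_of_disjoint, ← Finset.card_union_of_disjoint]
    · exact Finset.card_le_univ _
    all_goals
      rw [Finset.disjoint_left]
      intro g hg hg'
      simp only [Finset.mem_union, Finset.mem_filter, Finset.mem_univ, true_and] at hg hg'
      omega
  omega

end Cfsg.Lib.SimpleOrder.O175560
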